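import Mathlib

/-!
# Piece OS-B of S3421 (helper14): two generic counting lemmas

* `card_conj_union`: for a set `S` with "normaliser" `N` (in the TI sense), the union of the
  conjugates of `S` has `|G| * |S| / |N|` elements.
* `card_dvd_of_conj`: a conjugation-invariant set all of whose class sizes are divisible by `m`
  has cardinality divisible by `m`.
-/

set_option autoImplicit false

namespace Cfsg.Agent.Lib.Helper14.OS

theorem card_conj_union {G : Type*} [Group G] [Finite G] (S : Set G) (N : Subgroup G)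
    (h1 : ∀ k ∈ N, ∀ y ∈ S, k * y * k⁻¹ ∈ S)
    (h2 : ∀ k : G, ∀ y ∈ S, k * y * k⁻¹ ∈ S → k ∈ N) :
    Nat.card {g : G | ∃ h : G, ∃ y ∈ S, g = h * y * h⁻¹} * Nat.card N
      = Nat.card G * Nat.card S := by
  classical
  have hex : ∀ u : {g : G | ∃ h : G, ∃ y ∈ S, g = h * y * h⁻¹},
      ∃ p : G × G, p.2 ∈ S ∧ (u : G) = p.1 * p.2 * p.1⁻¹ := by
    rintro ⟨u, h, y, hy, rfl⟩; exact ⟨(h, y), hy, rfl⟩
  choose rep hrepS hrep using hex
  have key1 : ∀ (u : {g : G | ∃ h : G, ∃ y ∈ S, g = h * y * h⁻¹}) (h y : G), y ∈ S →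
      (u : G) = h * y * h⁻¹ → (rep u).1⁻¹ * h ∈ N := by
    intro u h y hy hu
    refine h2 _ y hy ?_
    have e1 := hrep u
    rw [hu] at e1
    have : (rep u).1⁻¹ * h * y * ((rep u).1⁻¹ * h)⁻¹ = (rep u).2 := by
      calc (rep u).1⁻¹ * h * y * ((rep u).1⁻¹ * h)⁻¹
          = (rep u).1⁻¹ * (h * y * h⁻¹) * (rep u).1 := by group
        _ = (rep u).1⁻¹ * ((rep u).1 * (rep u).2 * (rep u).1⁻¹) * (rep u).1 := by rw [e1]
        _ = (rep u).2 := by group
    rw [this]; exact hrepS u
  let f : {g : G | ∃ h : G, ∃ y ∈ S, g = h * y * h⁻¹} × N → G × S := fun p =>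
    ((rep p.1).1 * (p.2 : G), ⟨(p.2 : G)⁻¹ * (rep p.1).2 * (p.2 : G), by
        have := h1 (p.2 : G)⁻¹ (N.inv_mem p.2.2) _ (hrepS p.1)
        simpa using this⟩)
  have hf1 : ∀ p, (f p).1 = (rep p.1).1 * (p.2 : G) := fun p => rfl
  have hf2 : ∀ p, ((f p).2 : G) = (p.2 : G)⁻¹ * (rep p.1).2 * (p.2 : G) := fun p => rfl
  have hconj : ∀ p, (f p).1 * ((f p).2 : G) * (f p).1⁻¹ = (p.1 : G) := by
    intro p
    rw [hf1, hf2, hrep p.1]; group
  have hbij : Function.Bijective f := by
    constructor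
    · intro p p' hpp
      have hu : p.1 = p'.1 := by
        apply Subtype.ext
        rw [← hconj p, ← hconj p', hpp]
      have hk : (p.2 : G) = (p'.2 : G) := by
        have := congrArg Prod.fst hpp
        rw [hf1, hf1, hu] at this
        exact mul_left_cancel this
      exact Prod.ext hu (Subtype.ext hk)
    · rintro ⟨h, ⟨y, hy⟩⟩
      have hmem : h * y * h⁻¹ ∈ {g : G | ∃ h : G, ∃ y ∈ S, g = h * y * h⁻¹} := ⟨h, y, hy, rfl⟩
      refine ⟨(⟨h * y * h⁻¹, hmem⟩, ⟨(rep ⟨h * y * h⁻¹, hmem⟩).1⁻¹ * h, key1 _ h y hy rfl⟩), ?_⟩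
      apply Prod.ext
      · rw [hf1]; simp
      · apply Subtype.ext
        rw [hf2]
        have e1 := hrep ⟨h * y * h⁻¹, hmem⟩
        simp only at e1
        calc (((rep ⟨h * y * h⁻¹, hmem⟩).1⁻¹ * h)⁻¹ * (rep ⟨h * y * h⁻¹, hmem⟩).2
              * ((rep ⟨h * y * h⁻¹, hmem⟩).1⁻¹ * h))
            = h⁻¹ * ((rep ⟨h * y * h⁻¹, hmem⟩).1 * (rep ⟨h * y * h⁻¹, hmem⟩).2
              * (rep ⟨h * y * h⁻¹, hmem⟩).1⁻¹) * h := by group
          _ = h⁻¹ * (h * y * h⁻¹) * h := by rw [← e1]
          _ = y := by group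
  rw [← Nat.card_prod, ← Nat.card_prod]
  exact Nat.card_eq_of_bijective f hbij

theorem card_dvd_of_conj {G : Type*} [Group G] [Finite G] (S : Set G)
    (hS : ∀ g x : G, x ∈ S → g * x * g⁻¹ ∈ S) (m : ℕ)
    (hm : ∀ x ∈ S, m ∣ (Subgroup.centralizer ({x} : Set G)).index) : m ∣ Nat.card S := by
  classical
  have key : ∀ n : ℕ, ∀ S : Set G, S.ncard = n → (∀ g x : G, x ∈ S → g * x * g⁻¹ ∈ S) →
      (∀ x ∈ S, m ∣ (Subgroup.centralizer ({x} : Set G)).index) → m ∣ S.ncard := by
    intro n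
    induction n using Nat.strong_induction_on with
    | _ n ih =>
      intro S hn hS hm
      rcases S.eq_empty_or_nonempty with rfl | ⟨x, hx⟩
      · simp
      · have hKS : {g : G | ∃ h : G, ∃ y ∈ ({x} : Set G), g = h * y * h⁻¹} ⊆ S := by
          rintro _ ⟨h, y, hy, rfl⟩
          rw [Set.mem_singleton_iff] at hy; subst hy
          exact hS h _ hx
        have hxK : x ∈ {g : G | ∃ h : G, ∃ y ∈ ({x} : Set G), g = h * y * h⁻¹} :=
          ⟨1, x, rfl, by simp⟩
        have hKcard : ({g : G | ∃ h : G, ∃ y ∈ ({x} : Set G), g = h * y * h⁻¹}).ncard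
            = (Subgroup.centralizer ({x} : Set G)).index := by
          have h := card_conj_union ({x} : Set G) (Subgroup.centralizer ({x} : Set G)) ?_ ?_
          · have h3 := (Subgroup.centralizer ({x} : Set G)).card_mul_index
            have hpos : 0 < Nat.card (Subgroup.centralizer ({x} : Set G)) := Nat.card_pos
            have hone : Nat.card ({x} : Set G) = 1 := by
              rw [Nat.card_coe_set_eq, Set.ncard_singleton]
            rw [hone, mul_one, Nat.card_coe_set_eq, ← h3, mul_comm] at h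
            exact Nat.eq_of_mul_eq_mul_left hpos h
          · intro k hk y hy
            rw [Set.mem_singleton_iff] at hy ⊢; subst hy
            have := (Subgroup.mem_centralizer_iff.mp hk) y (Set.mem_singleton y)
            rw [← this]; group
          · intro k y hy hk
            rw [Set.mem_singleton_iff] at hy hk; subst hy
            rw [Subgroup.mem_centralizer_iff]
            intro z hz
            rw [Set.mem_singleton_iff] at hz; subst hz
            calc z * k = (k * z * k⁻¹) * k := by rw [hk]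
              _ = k * z := by group
        have hfin : S.Finite := Set.toFinite S
        have hsplit : (S \ {g : G | ∃ h : G, ∃ y ∈ ({x} : Set G), g = h * y * h⁻¹}).ncard
            + ({g : G | ∃ h : G, ∃ y ∈ ({x} : Set G), g = h * y * h⁻¹}).ncard = S.ncard :=
          Set.ncard_sdiff_add_ncard_of_subset hKS hfin
        have hKpos : 0 < ({g : G | ∃ h : G, ∃ y ∈ ({x} : Set G), g = h * y * h⁻¹}).ncard :=
          (Set.ncard_pos (Set.toFinite _)).mpr ⟨x, hxK⟩
        have hlt : (S \ {g : G | ∃ h : G, ∃ y ∈ ({x} : Set G), g = h * y * h⁻¹}).ncard < n := by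
          omega
        have hS' : ∀ g z : G,
            z ∈ S \ {g : G | ∃ h : G, ∃ y ∈ ({x} : Set G), g = h * y * h⁻¹} →
            g * z * g⁻¹ ∈ S \ {g : G | ∃ h : G, ∃ y ∈ ({x} : Set G), g = h * y * h⁻¹} := by
          rintro g z ⟨hzS, hzK⟩
          refine ⟨hS g z hzS, ?_⟩
          rintro ⟨h, y, hy, hgz⟩
          apply hzK
          refine ⟨g⁻¹ * h, y, hy, ?_⟩
          calc z = g⁻¹ * (g * z * g⁻¹) * g := by group
            _ = g⁻¹ * (h * y * h⁻¹) * g := by rw [hgz]
            _ = g⁻¹ * h * y * (g⁻¹ * h)⁻¹ := by group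
        have hm' : ∀ z ∈ S \ {g : G | ∃ h : G, ∃ y ∈ ({x} : Set G), g = h * y * h⁻¹},
            m ∣ (Subgroup.centralizer ({z} : Set G)).index := fun z hz => hm z hz.1
        have hd1 := ih _ hlt _ rfl hS' hm'
        rw [← hsplit, hKcard]
        exact Dvd.dvd.add hd1 (hm x hx)
  rw [Nat.card_coe_set_eq]
  exact key _ S rfl hS hm

end Cfsg.Agent.Lib.Helper14.OS
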