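import Mathlib

/-!
# Piece OS-H of S3421 (helper14): the abelian case `C(t)` abelian of order `2a` forces `a = 2`
-/

set_option autoImplicit false

namespace Cfsg.Agent.Lib.Helper14.OS

theorem ab_case {G : Type*} [Group G] [Finite G] (a : ℕ) (ha2 : 2 ≤ a) (C : Subgroup G)
    (hCcard : Nat.card C = 2 * a) (hab : ∀ c ∈ C, ∀ d ∈ C, c * d = d * c)
    (hcent : ∀ y ∈ C, y ≠ 1 → Nat.card (Subgroup.centralizer ({y} : Set G)) ∣ 2 * a)
    (hord : ∀ y ∈ C, orderOf y ∣ a)
    (hconj : ∀ g : G, g ≠ 1 → orderOf g ∣ a → ∃ h : G, h * g * h⁻¹ ∈ C)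
    (hNa : Nat.card {g : G | g ≠ 1 ∧ orderOf g ∣ a} * (2 * a) = Nat.card G * (a - 1))
    (hTI : ∀ (S : Set G) (N : Subgroup G), (∀ k ∈ N, ∀ y ∈ S, k * y * k⁻¹ ∈ S) →
      (∀ k : G, ∀ y ∈ S, k * y * k⁻¹ ∈ S → k ∈ N) →
      Nat.card {g : G | ∃ h : G, ∃ y ∈ S, g = h * y * h⁻¹} * Nat.card N
        = Nat.card G * Nat.card S) :
    a = 2 ∧ ∀ u ∈ C, ∀ v ∈ C, u ≠ 1 → v ≠ 1 → IsConj u v := by
  classical
  have hGpos : 0 < Nat.card G := Nat.card_pos
  -- centralizers of nonidentity elements of C are C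
  have hcentC : ∀ y ∈ C, y ≠ 1 → Subgroup.centralizer ({y} : Set G) = C := by
    intro y hy hy1
    have hle : C ≤ Subgroup.centralizer ({y} : Set G) := by
      intro c hc
      rw [Subgroup.mem_centralizer_iff]
      intro w hw
      rw [Set.mem_singleton_iff] at hw; subst hw
      exact hab w hy c hc
    have hcard : Nat.card (Subgroup.centralizer ({y} : Set G)) ≤ Nat.card C := by
      rw [hCcard]; exact Nat.le_of_dvd (by omega) (hcent y hy hy1)
    exact (Subgroup.eq_of_le_of_card_ge hle hcard).symm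
  -- the set S = C \ {1}
  have hS1 : ∀ k ∈ Subgroup.normalizer (C : Set G), ∀ y ∈ {y : G | y ∈ C ∧ y ≠ 1},
      k * y * k⁻¹ ∈ {y : G | y ∈ C ∧ y ≠ 1} := by
    rintro k hk y ⟨hyC, hy1⟩
    refine ⟨(Subgroup.mem_normalizer_iff.mp hk y).mp hyC, ?_⟩
    intro h
    apply hy1
    have : y = k⁻¹ * (k * y * k⁻¹) * k := by group
    rw [this, h]; group
  have hS2 : ∀ k : G, ∀ y ∈ {y : G | y ∈ C ∧ y ≠ 1},
      k * y * k⁻¹ ∈ {y : G | y ∈ C ∧ y ≠ 1} → k ∈ Subgroup.normalizer (C : Set G) := by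
    rintro k y ⟨hyC, hy1⟩ ⟨hkC, hk1⟩
    rw [Subgroup.mem_normalizer_iff]
    intro c
    constructor
    · intro hc
      -- k c k⁻¹ commutes with k y k⁻¹
      rw [← hcentC _ hkC hk1, Subgroup.mem_centralizer_iff]
      intro w hw
      rw [Set.mem_singleton_iff] at hw; subst hw
      have := hab y hyC c hc
      calc k * y * k⁻¹ * (k * c * k⁻¹) = k * (y * c) * k⁻¹ := by group
        _ = k * (c * y) * k⁻¹ := by rw [this]
        _ = k * c * k⁻¹ * (k * y * k⁻¹) := by group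
    · intro hc
      rw [← hcentC y hyC hy1, Subgroup.mem_centralizer_iff]
      intro w hw
      rw [Set.mem_singleton_iff] at hw; subst hw
      have := hab _ hkC _ hc
      calc w * c = k⁻¹ * ((k * w * k⁻¹) * (k * c * k⁻¹)) * k := by group
        _ = k⁻¹ * ((k * c * k⁻¹) * (k * w * k⁻¹)) * k := by rw [this]
        _ = c * w := by group
  have hE1 := hTI {y : G | y ∈ C ∧ y ≠ 1} (Subgroup.normalizer (C : Set G)) hS1 hS2
  -- the union of conjugates is the set of nonidentity elements of order dividing a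
  have hU : {g : G | ∃ h : G, ∃ y ∈ {y : G | y ∈ C ∧ y ≠ 1}, g = h * y * h⁻¹}
      = {g : G | g ≠ 1 ∧ orderOf g ∣ a} := by
    ext g
    constructor
    · rintro ⟨h, y, ⟨hyC, hy1⟩, rfl⟩
      refine ⟨?_, ?_⟩
      · intro h1
        apply hy1
        have : y = h⁻¹ * (h * y * h⁻¹) * h := by group
        rw [this, h1]; group
      · have : orderOf (h * y * h⁻¹) = orderOf y := by
          have := MulEquiv.orderOf_eq (MulAut.conj h) y
          rwa [MulAut.conj_apply] at this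
        rw [this]; exact hord y hyC
    · rintro ⟨hg1, hga⟩
      obtain ⟨h, hh⟩ := hconj g hg1 hga
      refine ⟨h⁻¹, h * g * h⁻¹, ⟨hh, ?_⟩, by group⟩
      intro h1
      apply hg1
      have : g = h⁻¹ * (h * g * h⁻¹) * h := by group
      rw [this, h1]; group
  rw [hU] at hE1
  -- card S = 2a - 1
  have hScard : Nat.card {y : G | y ∈ C ∧ y ≠ 1} = 2 * a - 1 := by
    have h1 : {y : G | y ∈ C ∧ y ≠ 1} = (C : Set G) \ {1} := by
      ext y; simp
    rw [h1, Nat.card_coe_set_eq, Set.ncard_sdiff_singleton_of_mem (C.one_mem),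
      ← Nat.card_coe_set_eq]
    have : Nat.card (C : Set G) = Nat.card C := rfl
    rw [this, hCcard]
  rw [hScard] at hE1
  -- card N = 2a * v
  have hCN : C ≤ Subgroup.normalizer (C : Set G) := Subgroup.le_normalizer
  obtain ⟨v, hv⟩ : Nat.card C ∣ Nat.card (Subgroup.normalizer (C : Set G)) :=
    Subgroup.card_dvd_of_le hCN
  rw [hCcard] at hv
  -- arithmetic
  have harith : (a - 1) * v = 2 * a - 1 := by
    have h1 : Nat.card G * ((a - 1) * v) = Nat.card G * (2 * a - 1) := by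
      rw [← hE1, hv, ← mul_assoc, ← hNa]; ring
    exact Nat.eq_of_mul_eq_mul_left hGpos h1
  obtain ⟨a', rfl⟩ : ∃ a', a = a' + 2 := ⟨a - 2, by omega⟩
  have harith' : (a' + 1) * v = 2 * a' + 3 := by
    have e1 : a' + 2 - 1 = a' + 1 := by omega
    have e2 : 2 * (a' + 2) - 1 = 2 * a' + 3 := by omega
    rw [e1, e2] at harith; exact harith
  have hv3 : v = 3 ∧ a' = 0 := by
    rcases Nat.lt_or_ge v 3 with h | h
    · exfalso
      have : (a' + 1) * v ≤ (a' + 1) * 2 := Nat.mul_le_mul_left _ (by omega)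
      omega
    · have h3 : (a' + 1) * 3 ≤ (a' + 1) * v := Nat.mul_le_mul_left _ h
      have ha0 : a' = 0 := by omega
      subst ha0
      omega
  obtain ⟨rfl, rfl⟩ := hv3
  refine ⟨rfl, ?_⟩
  -- transitivity: the union of conjugates is a single class
  intro u hu w hw hu1 hw1
  have hT1 : ∀ k ∈ Subgroup.centralizer ({u} : Set G), ∀ y ∈ ({u} : Set G),
      k * y * k⁻¹ ∈ ({u} : Set G) := by
    intro k hk y hy
    rw [Set.mem_singleton_iff] at hy ⊢; subst hy
    have := (Subgroup.mem_centralizer_iff.mp hk) y (Set.mem_singleton y)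
    rw [← this]; group
  have hT2 : ∀ k : G, ∀ y ∈ ({u} : Set G), k * y * k⁻¹ ∈ ({u} : Set G) →
      k ∈ Subgroup.centralizer ({u} : Set G) := by
    intro k y hy hk
    rw [Set.mem_singleton_iff] at hy hk; subst hy
    rw [Subgroup.mem_centralizer_iff]
    intro z hz
    rw [Set.mem_singleton_iff] at hz; subst hz
    calc z * k = (k * z * k⁻¹) * k := by rw [hk]
      _ = k * z := by group
  have hE2 := hTI ({u} : Set G) (Subgroup.centralizer ({u} : Set G)) hT1 hT2
  rw [hcentC u hu hu1, hCcard] at hE2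
  have hone : Nat.card ({u} : Set G) = 1 := by
    rw [Nat.card_coe_set_eq, Set.ncard_singleton]
  rw [hone] at hE2
  rw [hv] at hE1
  -- sizes agree
  have hsub : {g : G | ∃ h : G, ∃ y ∈ ({u} : Set G), g = h * y * h⁻¹}
      ⊆ {g : G | g ≠ 1 ∧ orderOf g ∣ 0 + 2} := by
    rw [← hU]
    rintro g ⟨h, y, hy, rfl⟩
    rw [Set.mem_singleton_iff] at hy; subst hy
    exact ⟨h, y, ⟨hu, hu1⟩, rfl⟩
  have hcardeq : ({g : G | g ≠ 1 ∧ orderOf g ∣ 0 + 2}).ncard
      ≤ ({g : G | ∃ h : G, ∃ y ∈ ({u} : Set G), g = h * y * h⁻¹}).ncard := by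
    rw [← Nat.card_coe_set_eq, ← Nat.card_coe_set_eq]
    have e1 : Nat.card {g : G | g ≠ 1 ∧ orderOf g ∣ 0 + 2} * 12 = Nat.card G * 3 := by
      rw [← hE1]
    have e2 : Nat.card {g : G | ∃ h : G, ∃ y ∈ ({u} : Set G), g = h * y * h⁻¹} * 4
        = Nat.card G := by
      rw [← mul_one (Nat.card G), ← hE2]
    omega
  have hEq := Set.eq_of_subset_of_ncard_le hsub hcardeq (Set.toFinite _)
  have hwmem : w ∈ {g : G | g ≠ 1 ∧ orderOf g ∣ 0 + 2} := ⟨hw1, hord w hw⟩
  rw [← hEq] at hwmem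
  obtain ⟨h, y, hy, rfl⟩ := hwmem
  rw [Set.mem_singleton_iff] at hy; subst hy
  exact isConj_iff.mpr ⟨h, rfl⟩

end Cfsg.Agent.Lib.Helper14.OS
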