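import Mathlib

/-!
# Piece OS-I of S3421 (helper14): every element of order dividing `a` is conjugate into `C(t)`
-/

set_option autoImplicit false

namespace Cfsg.Agent.Lib.Helper14.OS

open scoped Pointwise

/-- A `p`-element is conjugate into any subgroup containing a Sylow `p`-subgroup. -/
theorem OSI_sylow_conj_into {G : Type*} [Group G] [Finite G] (p : ℕ) [Fact p.Prime]
    (H : Subgroup G)
    (hH : (Nat.card G).factorization p = (Nat.card H).factorization p) (y : G)
    (hy : ∃ k : ℕ, orderOf y = p ^ k) : ∃ h : G, h * y * h⁻¹ ∈ H := by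
  classical
  obtain ⟨P⟩ : Nonempty (Sylow p H) := inferInstance
  have hPcard : Nat.card ((P : Subgroup H).map H.subtype)
      = p ^ (Nat.card G).factorization p := by
    rw [Subgroup.card_map_of_injective H.subtype_injective, hH]
    exact Sylow.card_eq_multiplicity P
  obtain ⟨k, hk⟩ := hy
  have hpg : IsPGroup p (Subgroup.zpowers y) := by
    apply IsPGroup.of_card (n := k)
    rw [Nat.card_zpowers, hk]
  obtain ⟨Q, hQ⟩ := hpg.exists_le_sylow
  obtain ⟨h, hh⟩ := MulAction.exists_smul_eq G Q (Sylow.ofCard _ hPcard)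
  refine ⟨h, ?_⟩
  have hyQ : y ∈ (Q : Subgroup G) := hQ (Subgroup.mem_zpowers y)
  have h1 : (MulAut.conj h) • y ∈ (MulAut.conj h) • (Q : Subgroup G) :=
    Subgroup.smul_mem_pointwise_smul y _ _ hyQ
  have h2 : ((h • Q : Sylow p G) : Subgroup G) = (MulAut.conj h) • (Q : Subgroup G) :=
    Sylow.pointwise_smul_def
  rw [← h2, hh] at h1
  have h3 : (MulAut.conj h) • y ∈ (P : Subgroup H).map H.subtype := h1
  obtain ⟨w, _, hw⟩ := Subgroup.mem_map.mp h3
  have h4 : h * y * h⁻¹ = (w : G) := by
    rw [MulAut.smul_def, MulAut.conj_apply] at hw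
    exact hw.symm
  rw [h4]; exact w.2

theorem conj_into_C {G : Type*} [Group G] [Finite G] (a m : ℕ)
    (hG : Nat.card G = 2 * a * m) (hcop : (2 * a).Coprime m) (x : G) (hx : orderOf x = a)
    (ha : Even a) (ha0 : 0 < a)
    (hC : Nat.card (Subgroup.centralizer ({x ^ (a / 2)} : Set G)) = 2 * a)
    (hcent : ∀ y ∈ Subgroup.zpowers x, y ≠ 1 →
      Subgroup.centralizer ({y} : Set G) ≤ Subgroup.centralizer ({x ^ (a / 2)} : Set G))
    (g : G) (hg1 : g ≠ 1) (hga : orderOf g ∣ a) :
    ∃ h : G, h * g * h⁻¹ ∈ Subgroup.centralizer ({x ^ (a / 2)} : Set G) := by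
  classical
  have hGpos : 0 < Nat.card G := Nat.card_pos
  have hm0 : m ≠ 0 := by
    rintro rfl; rw [mul_zero] at hG; omega
  have h2a0 : 2 * a ≠ 0 := by omega
  have hog0 : orderOf g ≠ 0 := (orderOf_pos g).ne'
  rcases Nat.eq_two_pow_or_exists_odd_prime_and_dvd (orderOf g) with ⟨k, hk⟩ | ⟨r, hr, hrg, hrodd⟩
  · -- 2-element
    have : Fact (Nat.Prime 2) := ⟨Nat.prime_two⟩
    have h2m : ¬ 2 ∣ m := by
      intro h
      have h1 : Nat.Coprime 2 m := hcop.coprime_dvd_left (Dvd.intro a rfl)
      have := Nat.Coprime.eq_one_of_dvd h1 h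
      omega
    have hfac : (Nat.card G).factorization 2
        = (Nat.card (Subgroup.centralizer ({x ^ (a / 2)} : Set G))).factorization 2 := by
      rw [hG, hC, Nat.factorization_mul h2a0 hm0, Finsupp.add_apply,
        Nat.factorization_eq_zero_of_not_dvd h2m, add_zero]
    exact OSI_sylow_conj_into 2 _ hfac g ⟨k, hk⟩
  · -- odd prime r dividing the order of g
    have : Fact r.Prime := ⟨hr⟩
    have hra : r ∣ a := hrg.trans hga
    have hr2 : ¬ r ∣ 2 := by
      intro h
      have : r = 2 := (Nat.prime_dvd_prime_iff_eq hr Nat.prime_two).mp h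
      subst this
      exact (Nat.not_even_iff_odd.mpr hrodd) even_two
    have hrm : ¬ r ∣ m := by
      intro h
      have h1 : Nat.Coprime r m := hcop.coprime_dvd_left (hra.trans (Dvd.intro_left 2 rfl))
      have := Nat.Coprime.eq_one_of_dvd h1 h
      exact hr.one_lt.ne' this
    have hTcard : Nat.card (Subgroup.zpowers x) = a := by rw [Nat.card_zpowers, hx]
    have hfac : (Nat.card G).factorization r
        = (Nat.card (Subgroup.zpowers x)).factorization r := by
      rw [hG, hTcard, Nat.factorization_mul h2a0 hm0, Finsupp.add_apply,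
        Nat.factorization_eq_zero_of_not_dvd hrm, add_zero,
        Nat.factorization_mul (by norm_num) ha0.ne', Finsupp.add_apply,
        Nat.factorization_eq_zero_of_not_dvd hr2, zero_add]
    have hz : orderOf (g ^ (orderOf g / r)) = r := orderOf_pow_orderOf_div hog0 hrg
    obtain ⟨h, hh⟩ := OSI_sylow_conj_into r (Subgroup.zpowers x) hfac (g ^ (orderOf g / r))
      ⟨1, by rw [hz, pow_one]⟩
    refine ⟨h, ?_⟩
    have hne : h * g ^ (orderOf g / r) * h⁻¹ ≠ 1 := by
      intro h1
      have : g ^ (orderOf g / r) = 1 := by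
        have h2 : g ^ (orderOf g / r) = h⁻¹ * (h * g ^ (orderOf g / r) * h⁻¹) * h := by group
        rw [h2, h1]; group
      rw [this, orderOf_one] at hz
      exact hr.one_lt.ne' hz.symm
    apply hcent _ hh hne
    rw [Subgroup.mem_centralizer_iff]
    intro w hw
    rw [Set.mem_singleton_iff] at hw
    subst hw
    have hcomm : g ^ (orderOf g / r) * g = g * g ^ (orderOf g / r) := by
      rw [← pow_succ, ← pow_succ']
    calc h * g ^ (orderOf g / r) * h⁻¹ * (h * g * h⁻¹)
        = h * (g ^ (orderOf g / r) * g) * h⁻¹ := by group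
      _ = h * (g * g ^ (orderOf g / r)) * h⁻¹ := by rw [hcomm]
      _ = h * g * h⁻¹ * (h * g ^ (orderOf g / r) * h⁻¹) := by group

end Cfsg.Agent.Lib.Helper14.OS
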