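import Mathlib
import Cfsg.Prelude.Def_RootSubgroups
import Cfsg.Agent.Lib.Helper12.RootInv

set_option autoImplicit false

namespace Cfsg.Agent.Lib.Helper20.RI

open Cfsg Cfsg.Agent.Lib.Helper12.RootInv

variable {G : Type*} [Group G]

/-- two commuting root involutions have product of square one -/
theorem sq_of_comm {D : Set G} (hD : IsRootInvolutionSet D) {a b : G} (ha : a ∈ D) (hb : b ∈ D)
    (h : a * b = b * a) : a * b * (a * b) = 1 := by
  calc a * b * (a * b) = a * (b * a) * b := by simp only [mul_assoc]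
    _ = a * (a * b) * b := by rw [h]
    _ = (a * a) * (b * b) := by simp only [mul_assoc]
    _ = 1 := by rw [ri_sq hD ha, ri_sq hD hb, mul_one]

/-- two commuting root involutions with product of odd order are equal -/
theorem eq_of_comm_odd {D : Set G} (hD : IsRootInvolutionSet D) {a b : G} (ha : a ∈ D) (hb : b ∈ D)
    (h : a * b = b * a) (hodd : Odd (orderOf (a * b))) : a = b := by
  have h2 : (a * b) ^ 2 = 1 := by rw [pow_two]; exact sq_of_comm hD ha hb h
  have d1 : orderOf (a * b) ∣ 2 := orderOf_dvd_of_pow_eq_one h2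
  have h1 : orderOf (a * b) = 1 := by
    rcases (Nat.dvd_prime Nat.prime_two).mp d1 with h | h
    · exact h
    · rw [h] at hodd; exact absurd hodd (by decide)
  have h3 : a * b = 1 := orderOf_eq_one_iff.mp h1
  have h4 : a = b⁻¹ := eq_inv_of_mul_eq_one_left h3
  rw [h4, ri_inv hD hb]

/-- the third case of the trichotomy -/
theorem four_of_not {D : Set G} (hD : IsRootInvolutionSet D) {a b : G} (ha : a ∈ D) (hb : b ∈ D)
    (hne : a * b ≠ b * a) (hodd : ¬ Odd (orderOf (a * b))) :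
    orderOf (a * b) = 4 ∧ (a * b) ^ 2 ∈ D := by
  rcases hD.pair a ha b hb with h | h | h
  · exact absurd h hne
  · exact absurd h hodd
  · exact h

theorem four_not_comm {D : Set G} (hD : IsRootInvolutionSet D) {a b : G} (ha : a ∈ D) (hb : b ∈ D)
    (h4 : orderOf (a * b) = 4) : a * b ≠ b * a := by
  intro h
  have h2 : (a * b) ^ 2 = 1 := by rw [pow_two]; exact sq_of_comm hD ha hb h
  have d1 : orderOf (a * b) ∣ 2 := orderOf_dvd_of_pow_eq_one h2
  rw [h4] at d1
  exact absurd (Nat.le_of_dvd (by norm_num) d1) (by norm_num)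

theorem four_not_odd {a b : G} (h4 : orderOf (a * b) = 4) : ¬ Odd (orderOf (a * b)) := by
  rw [h4]; decide

theorem four_mem {D : Set G} (hD : IsRootInvolutionSet D) {a b : G} (ha : a ∈ D) (hb : b ∈ D)
    (h4 : orderOf (a * b) = 4) : (a * b) ^ 2 ∈ D :=
  (four_of_not hD ha hb (four_not_comm hD ha hb h4) (four_not_odd h4)).2

theorem four_pow {a b : G} (h4 : orderOf (a * b) = 4) : (a * b) ^ 4 = 1 := by
  rw [← h4]; exact pow_orderOf_eq_one _

/-- `(a b)^4 = 1` for root involutions whose product does not have odd order -/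
theorem pow4_of_not_odd {D : Set G} (hD : IsRootInvolutionSet D) {a b : G} (ha : a ∈ D) (hb : b ∈ D)
    (hodd : ¬ Odd (orderOf (a * b))) : (a * b) ^ 4 = 1 := by
  rcases hD.pair a ha b hb with h | h | ⟨h, -⟩
  · exact pow4_of_comm hD ha hb h
  · exact absurd h hodd
  · exact four_pow h

/-- L2: `w` and `w z` root involutions, `z` an involution commuting with `w` and with the root involution `b`:
then `w b` has odd order only if `w = b`. -/
theorem l2 {D : Set G} (hD : IsRootInvolutionSet D) {w z b : G} (hz : z * z = 1) (hz1 : z ≠ 1)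
    (hwz : w * z = z * w) (hwzD : w * z ∈ D) (hb : b ∈ D) (hbz : b * z = z * b)
    (hodd : Odd (orderOf (w * b))) : w = b := by
  obtain ⟨k, hk⟩ := hodd
  have hcz : Commute z (w * b) := by
    show z * (w * b) = w * b * z
    rw [← mul_assoc, ← hwz, mul_assoc, mul_assoc, hbz]
  have hy : w * z * b = z * (w * b) := by rw [hwz, mul_assoc]
  have hzk : z ^ (2 * k + 1) = z := by
    rw [pow_succ, pow_mul, pow_two, hz, one_pow, one_mul]
  have hyn : (w * z * b) ^ (2 * k + 1) = z := by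
    rw [hy, hcz.mul_pow, hzk, ← hk, pow_orderOf_eq_one, mul_one]
  have d1 : orderOf (w * z * b) ∣ 2 * (2 * k + 1) := by
    apply orderOf_dvd_of_pow_eq_one
    rw [mul_comm, pow_mul, hyn, pow_two, hz]
  rcases hD.pair (w * z) hwzD b hb with h | h | ⟨h, -⟩
  · have h2 : (w * z * b) * (w * z * b) = 1 := sq_of_comm hD hwzD hb h
    have h3 : (w * z * b) ^ (2 * k + 1) = w * z * b := by
      rw [pow_succ, pow_mul, pow_two, h2, one_pow, one_mul]
    rw [h3, hy] at hyn
    have h4 : w * b = 1 := by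
      have e : z * (w * b) = z * 1 := by rw [mul_one]; exact hyn
      exact mul_left_cancel e
    have h5 : w = b⁻¹ := eq_inv_of_mul_eq_one_left h4
    rw [h5, ri_inv hD hb]
  · exfalso
    have d2 : orderOf (w * z * b) ∣ 2 * k + 1 :=
      (Nat.Coprime.dvd_mul_left (Nat.coprime_two_right.mpr h)).mp d1
    apply hz1
    rw [← hyn]
    exact orderOf_dvd_iff_pow_eq_one.mp d2
  · exfalso
    rw [h] at d1
    omega

/-! ### word identities for involutions -/

theorem inv_sq_left {a b : G} (ha : a * a = 1) : a * (a * b) ^ 2 = b * a * b := by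
  rw [pow_two]; simp only [← mul_assoc]; rw [ha, one_mul]

theorem inv_sq_right {a b : G} (hb : b * b = 1) : (a * b) ^ 2 * b = a * b * a := by
  rw [pow_two]; simp only [mul_assoc]; rw [hb, mul_one]

theorem sq_comm_left {a b : G} (ha : a * a = 1) (hb : b * b = 1) (h4 : (a * b) ^ 4 = 1) :
    a * (a * b) ^ 2 = (a * b) ^ 2 * a := by
  have e1 : a * (a * b) ^ 2 = b * a * b := inv_sq_left ha
  have e2 : (a * b) ^ 2 * a * (b * a * b) = 1 := by
    rw [← h4]; simp only [pow_succ, pow_zero, one_mul, mul_assoc]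
  have e3 : (b * a * b) * (b * a * b) = 1 := by
    simp only [mul_assoc]; rw [← mul_assoc b b, hb, one_mul, ← mul_assoc a a, ha, one_mul, hb]
  have e4 : (a * b) ^ 2 * a = (b * a * b)⁻¹ := eq_inv_of_mul_eq_one_left e2
  rw [e1, e4]; exact (inv_eq_of_mul_eq_one_left e3).symm

theorem sq_comm_right {a b : G} (ha : a * a = 1) (hb : b * b = 1) (h4 : (a * b) ^ 4 = 1) :
    b * (a * b) ^ 2 = (a * b) ^ 2 * b := by
  have e1 : (a * b) ^ 2 * b = a * b * a := inv_sq_right hb
  have e2 : (a * b * a) * (b * (a * b) ^ 2) = 1 := by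
    rw [← h4]; simp only [pow_succ, pow_zero, one_mul, mul_assoc]
  have e3 : (a * b * a) * (a * b * a) = 1 := by
    simp only [mul_assoc]; rw [← mul_assoc a a, ha, one_mul, ← mul_assoc b b, hb, one_mul, ha]
  have e4 : b * (a * b) ^ 2 = (a * b * a)⁻¹ := eq_inv_of_mul_eq_one_right e2
  rw [e1, e4]; exact inv_eq_of_mul_eq_one_left e3

/-- the square of a product of order dividing 4 of two involutions is an involution -/
theorem sq_sq {a b : G} (h4 : (a * b) ^ 4 = 1) : (a * b) ^ 2 * (a * b) ^ 2 = 1 := by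
  rw [← pow_add]; exact h4

/-! ### conjugacy -/

theorem conj_of_oddAdj {D : Set G} (hD : IsRootInvolutionSet D) {a b : G} (h : OddAdj D a b) :
    ∃ g : G, b = g * a * g⁻¹ := by
  obtain ⟨ha, hb, -, k, hk⟩ := h
  have h1 : (a * b) ^ (2 * k + 1) = 1 := by rw [← hk]; exact pow_orderOf_eq_one _
  have hinv : (a * b)⁻¹ = b * a := by rw [mul_inv_rev, ri_inv hD ha, ri_inv hD hb]
  have h2 : (a * b) ^ k = (b * a) ^ (k + 1) := by
    have e : (a * b) ^ k * (a * b) ^ (k + 1) = 1 := by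
      rw [← pow_add]
      have : k + (k + 1) = 2 * k + 1 := by ring
      rw [this, h1]
    rw [eq_inv_of_mul_eq_one_left e, ← inv_pow, hinv]
  have h3 : b * (a * b) ^ k = (b * a) ^ k * b := by
    have hs : SemiconjBy b (a * b) (b * a) := by
      show b * (a * b) = b * a * b
      simp only [mul_assoc]
    exact hs.pow_right k
  refine ⟨(a * b) ^ k, ?_⟩
  rw [eq_mul_inv_iff_mul_eq, h3, h2, pow_succ, mul_assoc, mul_assoc, ri_sq hD ha, mul_one]

theorem conj_of_rtg {D : Set G} (hD : IsRootInvolutionSet D) {a b : G}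
    (h : Relation.ReflTransGen (OddAdj D) a b) : ∃ g : G, b = g * a * g⁻¹ := by
  induction h with
  | refl => exact ⟨1, by simp⟩
  | tail _ hbc ih =>
    obtain ⟨g, hg⟩ := ih
    obtain ⟨g', hg'⟩ := conj_of_oddAdj hD hbc
    exact ⟨g' * g, by rw [hg', hg]; group⟩

/-- a connected set of root involutions is a single conjugacy class -/
theorem conj_class {D : Set G} (hD : IsRootInvolutionSet D) (hc : IsConnectedSet (OddAdj D) D) :
    ∀ a ∈ D, ∀ b ∈ D, ∃ g : G, b = g * a * g⁻¹ :=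
  fun a ha b hb => conj_of_rtg hD (hc a ha b hb)

theorem conj_mem_iff {D : Set G} (hD : IsRootInvolutionSet D) (g x : G) :
    g * x * g⁻¹ ∈ D ↔ x ∈ D := by
  constructor
  · intro h
    have := hD.conj_mem _ h g⁻¹
    have e2 : g⁻¹ * (g * x * g⁻¹) * g⁻¹⁻¹ = x := by group
    rwa [e2] at this
  · intro h; exact hD.conj_mem _ h g

theorem oddPartners_conj {D : Set G} (hD : IsRootInvolutionSet D) (g a x : G) :
    g * x * g⁻¹ ∈ oddPartners D (g * a * g⁻¹) ↔ x ∈ oddPartners D a := by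
  have e : g * a * g⁻¹ * (g * x * g⁻¹) = g * (a * x) * g⁻¹ := by group
  show (g * x * g⁻¹ ∈ D ∧ g * x * g⁻¹ ≠ g * a * g⁻¹ ∧ Odd (orderOf (g * a * g⁻¹ * (g * x * g⁻¹)))) ↔
    (x ∈ D ∧ x ≠ a ∧ Odd (orderOf (a * x)))
  rw [e, orderOf_conj_eq, conj_mem_iff hD]
  constructor
  · rintro ⟨h1, h2, h3⟩
    exact ⟨h1, fun h => h2 (by rw [h]), h3⟩
  · rintro ⟨h1, h2, h3⟩
    refine ⟨h1, ?_, h3⟩
    intro h; apply h2
    have := congrArg (fun y => g⁻¹ * y * g) h
    simpa [mul_assoc] using this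

theorem oddPartners_conj_image {D : Set G} (hD : IsRootInvolutionSet D) (g a : G) :
    oddPartners D (g * a * g⁻¹) = (fun x => g * x * g⁻¹) '' oddPartners D a := by
  ext y
  constructor
  · intro hy
    refine ⟨g⁻¹ * y * g, ?_, by group⟩
    rw [← oddPartners_conj hD g a]
    have e2 : g * (g⁻¹ * y * g) * g⁻¹ = y := by group
    rw [e2]; exact hy
  · rintro ⟨x, hx, rfl⟩
    exact (oddPartners_conj hD g a x).mpr hx

theorem ncard_oddPartners_conj {D : Set G} (hD : IsRootInvolutionSet D) (g a : G) :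
    (oddPartners D (g * a * g⁻¹)).ncard = (oddPartners D a).ncard := by
  rw [oddPartners_conj_image hD]
  apply Set.ncard_image_of_injective
  intro x y h
  simpa using h

theorem ncard_oddPartners_eq {D : Set G} (hD : IsRootInvolutionSet D)
    (hconj : ∀ a ∈ D, ∀ b ∈ D, ∃ g : G, b = g * a * g⁻¹) {a b : G} (ha : a ∈ D) (hb : b ∈ D) :
    (oddPartners D a).ncard = (oddPartners D b).ncard := by
  obtain ⟨g, hg⟩ := hconj a ha b hb
  rw [hg, ncard_oddPartners_conj hD]

theorem oddPartners_conj_eq {D : Set G} (hD : IsRootInvolutionSet D) (g : G) {a u : G}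
    (h : oddPartners D a = oddPartners D u) :
    oddPartners D (g * a * g⁻¹) = oddPartners D (g * u * g⁻¹) := by
  rw [oddPartners_conj_image hD, oddPartners_conj_image hD, h]

theorem not_mem_odd_of_comm {D : Set G} (hD : IsRootInvolutionSet D) {u c : G} (hu : u ∈ D)
    (hcu : c * u = u * c) : c ∉ oddPartners D u := by
  rintro ⟨hc, hne, hodd⟩
  exact hne (eq_of_comm_odd hD hu hc hcu.symm hodd).symm

/-- line lemma: if two points `e`, `e f` of a line have the same odd partners, so has the third -/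
theorem line_lemma [Finite G] {D : Set G} (hD : IsRootInvolutionSet D)
    (hconj : ∀ a ∈ D, ∀ b ∈ D, ∃ g : G, b = g * a * g⁻¹) {e f : G} (he : e ∈ D) (hf : f ∈ D)
    (hef : e * f = f * e) (hefD : e * f ∈ D) (h : oddPartners D e = oddPartners D (e * f)) :
    oddPartners D f = oddPartners D e := by
  refine Set.eq_of_subset_of_ncard_le ?_ ?_ (Set.toFinite _)
  · intro x hx
    obtain ⟨hxD, hxf, hodd⟩ := hx
    by_contra hxe
    have h1 : ¬ Odd (orderOf (e * x)) := by
      intro ho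
      apply hxe
      refine ⟨hxD, ?_, ho⟩
      intro hxe'
      rw [hxe'] at hodd
      have hfe : f = e := eq_of_comm_odd hD hf he hef.symm hodd
      apply ri_ne_one hD hefD
      rw [hfe]; exact ri_sq hD he
    have k := key_lemma hD he hf hxD hef hefD hodd (Ne.symm hxf) h1
    apply hxe
    rw [h]
    exact ⟨hxD, (Ne.symm k.2.2.1), k.2.2.2⟩
  · exact le_of_eq (ncard_oddPartners_eq hD hconj he hf)

/-- members of `D` are odd partners of `d` iff they neither commute with `d` nor are four-partners -/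
theorem mem_odd_iff {D : Set G} (hD : IsRootInvolutionSet D) {d x : G} (hd : d ∈ D) (hx : x ∈ D) :
    x ∈ oddPartners D d ↔ x ∉ commutingMembers D d ∪ fourPartners D d := by
  constructor
  · rintro ⟨-, hne, hodd⟩ (h | h)
    · exact hne (eq_of_comm_odd hD hd hx h.2.symm hodd).symm
    · exact four_not_odd h.2 hodd
  · intro h
    have h1 : x * d ≠ d * x := fun e => h (Or.inl ⟨hx, e⟩)
    have h2 : orderOf (d * x) ≠ 4 := fun e => h (Or.inr ⟨hx, e⟩)
    rcases hD.pair d hd x hx with h3 | h3 | h3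
    · exact absurd h3.symm h1
    · exact ⟨hx, fun e => h1 (by rw [e]), h3⟩
    · exact absurd h3.1 h2

/-- same commuting members implies same four-partners -/
theorem four_of_comm_eq {D : Set G} (hD : IsRootInvolutionSet D) {d e : G} (hd : d ∈ D) (he : e ∈ D)
    (h : commutingMembers D d = commutingMembers D e) {x : G} (hx : x ∈ fourPartners D d) :
    x ∈ fourPartners D e := by
  obtain ⟨hxD, h4⟩ := hx
  refine ⟨hxD, ?_⟩
  have hd2 := ri_sq hD hd
  have hx2 := ri_sq hD hxD
  have hzD : (d * x) ^ 2 ∈ D := four_mem hD hd hxD h4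
  have hp4 := four_pow h4
  have hzd : (d * x) ^ 2 * d = d * (d * x) ^ 2 := (sq_comm_left hd2 hx2 hp4).symm
  have hzx : x * (d * x) ^ 2 = (d * x) ^ 2 * x := sq_comm_right hd2 hx2 hp4
  have hze : (d * x) ^ 2 * e = e * (d * x) ^ 2 := by
    have : (d * x) ^ 2 ∈ commutingMembers D e := by rw [← h]; exact ⟨hzD, hzd⟩
    exact this.2
  have hne : e * x ≠ x * e := by
    intro hc
    have : x ∈ commutingMembers D d := by rw [h]; exact ⟨hxD, hc.symm⟩
    exact four_not_comm hD hd hxD h4 this.2.symm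
  have hodd : ¬ Odd (orderOf (e * x)) := by
    intro ho
    have ho' : Odd (orderOf (x * e)) := by rw [orderOf_mul_swap]; exact ho
    have hxz : x * (d * x) ^ 2 ∈ D := by
      rw [hzx, inv_sq_right hx2]
      have := hD.conj_mem x hxD d
      rwa [ri_inv hD hd] at this
    have := l2 hD (sq_sq hp4) (ri_ne_one hD hzD) hzx hxz he hze.symm ho'
    exact hne (by rw [this])
  exact (four_of_not hD he hxD hne hodd).1

/-! ### the family `β_i = ρ^{-i} β ρ^{i}` -/

/-- `bfam ρ β i = ρ^{-i} β ρ^{i}` -/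
def bfam (ρ β : G) (i : ℤ) : G := ρ ^ (-i) * β * ρ ^ i

theorem bfam_zero (ρ β : G) : bfam ρ β 0 = β := by simp [bfam]

theorem bfam_conj_zpow (ρ β : G) (i k : ℤ) : ρ ^ (-k) * bfam ρ β i * ρ ^ k = bfam ρ β (i + k) := by
  unfold bfam
  have e1 : ρ ^ (-(i + k)) = ρ ^ (-k) * ρ ^ (-i) := by rw [← zpow_add]; congr 1; ring
  have e2 : ρ ^ (i + k) = ρ ^ i * ρ ^ k := zpow_add ρ i k
  rw [e1, e2]; simp only [mul_assoc]

theorem bfam_succ (ρ β : G) (i : ℤ) : ρ⁻¹ * bfam ρ β i * ρ = bfam ρ β (i + 1) := by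
  have h := bfam_conj_zpow ρ β i 1
  simpa using h

theorem bfam_pred (ρ β : G) (i : ℤ) : ρ * bfam ρ β i * ρ⁻¹ = bfam ρ β (i - 1) := by
  have h := bfam_conj_zpow ρ β i (-1)
  simpa [sub_eq_add_neg] using h

theorem bfam_mem {D : Set G} (hD : IsRootInvolutionSet D) {β : G} (hβ : β ∈ D) (ρ : G) (i : ℤ) :
    bfam ρ β i ∈ D := by
  have h := hD.conj_mem β hβ (ρ ^ (-i))
  have e : (ρ ^ (-i))⁻¹ = ρ ^ i := by rw [← zpow_neg, neg_neg]
  rw [e] at h
  exact h

theorem bfam_sq {ρ β : G} (hβ : β * β = 1) (i : ℤ) : bfam ρ β i * bfam ρ β i = 1 := by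
  unfold bfam
  have e : ρ ^ i * ρ ^ (-i) = 1 := by rw [← zpow_add]; simp
  calc ρ ^ (-i) * β * ρ ^ i * (ρ ^ (-i) * β * ρ ^ i)
      = ρ ^ (-i) * β * (ρ ^ i * ρ ^ (-i)) * β * ρ ^ i := by simp only [mul_assoc]
    _ = ρ ^ (-i) * (β * β) * ρ ^ i := by rw [e, mul_one]; simp only [mul_assoc]
    _ = 1 := by rw [hβ, mul_one, ← zpow_add]; simp

/-- an involution `u` inverting `ρ` inverts all powers -/
theorem refl_zpow {u ρ : G} (hu : u * u = 1) (h : u * ρ * u = ρ⁻¹) (i : ℤ) : u * ρ ^ i * u = ρ ^ (-i) := by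
  have hui : u⁻¹ = u := inv_eq_of_mul_eq_one_left hu
  have e : u * ρ ^ i * u = (u * ρ * u⁻¹) ^ i := by rw [conj_zpow, hui]
  rw [e, hui, h, inv_zpow, zpow_neg]

/-- for involutions `u`, `x`: `u` inverts `u x` -/
theorem refl_mul {u x : G} (hu : u * u = 1) (hx : x * x = 1) : u * (u * x) * u = (u * x)⁻¹ := by
  have hui : u⁻¹ = u := inv_eq_of_mul_eq_one_left hu
  have hxi : x⁻¹ = x := inv_eq_of_mul_eq_one_left hx
  rw [mul_inv_rev, hui, hxi, ← mul_assoc, hu, one_mul]

/-- an involution `u` inverting `ρ` and commuting with `β` maps `β_i` to `β_{-i}` -/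
theorem bfam_refl {u ρ β : G} (hu : u * u = 1) (h : u * ρ * u = ρ⁻¹) (hβu : β * u = u * β) (i : ℤ) :
    u * bfam ρ β i * u = bfam ρ β (-i) := by
  unfold bfam
  have e1 : u * ρ ^ (-i) = ρ ^ i * u := by
    have h1 := refl_zpow hu h (-i)
    rw [neg_neg] at h1
    calc u * ρ ^ (-i) = u * ρ ^ (-i) * (u * u) := by rw [hu, mul_one]
      _ = (u * ρ ^ (-i) * u) * u := by simp only [mul_assoc]
      _ = ρ ^ i * u := by rw [h1]
  have e2 : ρ ^ i * u = u * ρ ^ (-i) := e1.symm
  calc u * (ρ ^ (-i) * β * ρ ^ i) * u = (u * ρ ^ (-i)) * β * (ρ ^ i * u) := by simp only [mul_assoc]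
    _ = (ρ ^ i * u) * β * (u * ρ ^ (-i)) := by rw [e1, e2]
    _ = ρ ^ i * (u * β) * u * ρ ^ (-i) := by simp only [mul_assoc]
    _ = ρ ^ i * (β * u) * u * ρ ^ (-i) := by rw [hβu]
    _ = ρ ^ i * β * (u * u) * ρ ^ (-i) := by simp only [mul_assoc]
    _ = ρ ^ (- -i) * β * ρ ^ (-i) := by rw [hu, mul_one, neg_neg]

theorem bfam_period {ρ β : G} {m : ℕ} (hm : ρ ^ m = 1) (i : ℤ) : bfam ρ β (i + m) = bfam ρ β i := by
  rw [← bfam_conj_zpow]
  have e1 : ρ ^ (m : ℤ) = 1 := by rw [zpow_natCast, hm]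
  have e2 : ρ ^ (-(m : ℤ)) = 1 := by rw [zpow_neg, e1, inv_one]
  rw [e1, e2, one_mul, mul_one]

end Cfsg.Agent.Lib.Helper20.RI
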