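import Mathlib
import Cfsg.Agent.Lib.Helper18.TLDefs

/-!
# Piece COMMZ of S3797 (helper18, project TL): `[P, P] = Z`
-/

set_option autoImplicit false

namespace Cfsg.Agent.Lib.Helper18.TL

open Subgroup
open scoped commutatorElement

universe u

variable {G : Type u} [Group G]

private theorem commz_conj_mem {P : Subgroup G} {y : G} (hy : y ∈ normalizer (P : Set G))
    {c : G} (hc : c ∈ ⁅P, P⁆) : y * c * y⁻¹ ∈ ⁅P, P⁆ := by
  have hmap : P.map (MulAut.conj y).toMonoidHom = P := by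
    ext x
    constructor
    · rintro ⟨p, hp, rfl⟩
      exact (Subgroup.mem_normalizer_iff.mp hy p).mp hp
    · intro hx
      refine ⟨y⁻¹ * x * y, ?_, ?_⟩
      · apply (Subgroup.mem_normalizer_iff.mp hy (y⁻¹ * x * y)).mpr
        have : y * (y⁻¹ * x * y) * y⁻¹ = x := by group
        rw [this]; exact hx
      · show y * (y⁻¹ * x * y) * y⁻¹ = x
        group
  have h1 : (MulAut.conj y).toMonoidHom c ∈ (⁅P, P⁆ : Subgroup G).map (MulAut.conj y).toMonoidHom :=
    Subgroup.mem_map_of_mem _ hc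
  rw [Subgroup.map_commutator, hmap] at h1
  exact h1

-- piece COMMZ
theorem comm_eq_Z [Finite G] {Z Y P W T : Subgroup G} (hC : Cfg Z Y) (h : Adm Z Y P W T)
    (hWT : ⁅W, T⁆ = W) (hsq : ∀ x ∈ P, x ^ 2 ∈ ⁅P, P⁆) (hcZ : ⁅P, P⁆ ≤ Z) :
    ⁅P, P⁆ = Z := by
  -- the commutator subgroup is not trivial
  have hne : (⁅P, P⁆ : Subgroup G) ≠ ⊥ := by
    intro hbot
    apply h.nontriv
    rw [hWT]
    intro w hw
    rw [Subgroup.mem_centralizer_iff]
    intro p hp
    have hpZ : p ∈ Z := by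
      rw [hC.amb.memZ]
      have := hsq p hp
      rw [hbot, Subgroup.mem_bot] at this
      exact this
    exact (Subgroup.mem_centralizer_iff.mp (h.WZ hw)) p hpZ
  obtain ⟨⟨c, hc⟩, hc1⟩ := (Subgroup.ne_bot_iff_exists_ne_one).mp hne
  have hc1' : c ≠ 1 := fun hh => hc1 (Subtype.ext hh)
  apply le_antisymm hcZ
  intro z hz
  by_cases hz1 : z = 1
  · rw [hz1]; exact Subgroup.one_mem _
  · obtain ⟨y, hy, hyz⟩ := hC.trans c (hcZ hc) z hz hc1' hz1
    rw [← hyz]
    exact commz_conj_mem (h.YP hy) hc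

end Cfsg.Agent.Lib.Helper18.TL
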