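import Mathlib
import Cfsg.Agent.Lib.Helper18.TLDefs

/-!
# Piece QUOT of S3797 (helper18, project TL)

The hypotheses (one class of involutions, two distinct commuting involutions) pass to the quotient
by a normal subgroup of odd order.
-/

set_option autoImplicit false

namespace Cfsg.Agent.Lib.Helper18.TL

open Subgroup
open scoped commutatorElement

universe u

variable {G : Type u} [Group G]

private theorem quot_pow_odd {H : Type*} [Group H] (t : H) (ht : t ^ 2 = 1) (k : ℕ) (hk : Odd k) :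
    t ^ k = t := by
  obtain ⟨j, rfl⟩ := hk
  rw [pow_add, pow_mul, ht, one_pow, one_mul, pow_one]

private theorem quot_invol_not_mem [Finite G] (N : Subgroup G) (hN : Odd (Nat.card N)) (t : G)
    (ht1 : t ≠ 1) (ht2 : t ^ 2 = 1) : t ∉ N := by
  intro h
  have h1 : (⟨t, h⟩ : N) ^ Nat.card N = 1 := pow_card_eq_one'
  have h2 : (⟨t, h⟩ : N) ^ 2 = 1 := Subtype.ext (by simpa using ht2)
  rw [quot_pow_odd _ h2 _ hN] at h1
  exact ht1 (by simpa using congrArg Subtype.val h1)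

private theorem quot_lift_invol [Finite G] (N : Subgroup G) [N.Normal] (hN : Odd (Nat.card N))
    (x : G ⧸ N) (hx1 : x ≠ 1) (hx2 : x ^ 2 = 1) :
    ∃ t : G, t ≠ 1 ∧ t ^ 2 = 1 ∧ (QuotientGroup.mk t : G ⧸ N) = x := by
  obtain ⟨g, rfl⟩ := QuotientGroup.mk_surjective x
  have hg2 : g ^ 2 ∈ N := by
    have : ((g ^ 2 : G) : G ⧸ N) = 1 := by
      rw [QuotientGroup.mk_pow]; exact hx2
    exact (QuotientGroup.eq_one_iff _).mp this
  have h1 : (⟨g ^ 2, hg2⟩ : N) ^ Nat.card N = 1 := pow_card_eq_one'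
  have h2 : (g ^ 2) ^ Nat.card N = 1 := congrArg Subtype.val h1
  have hmk : ((g ^ Nat.card N : G) : G ⧸ N) = (g : G ⧸ N) := by
    rw [QuotientGroup.mk_pow]; exact quot_pow_odd _ hx2 _ hN
  refine ⟨g ^ Nat.card N, ?_, ?_, hmk⟩
  · intro h
    rw [h] at hmk
    exact hx1 hmk.symm
  · rw [← pow_mul, mul_comm, pow_mul]; exact h2

-- piece QUOT
theorem quot_hyp [Finite G] (N : Subgroup G) [N.Normal] (hN : Odd (Nat.card N))
    (hconj : ∀ x y : G, x ≠ 1 → x ^ 2 = 1 → y ≠ 1 → y ^ 2 = 1 → IsConj x y)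
    (htwo : ∃ x y : G, x ≠ y ∧ x ≠ 1 ∧ x ^ 2 = 1 ∧ y ≠ 1 ∧ y ^ 2 = 1 ∧ x * y = y * x) :
    (∀ x y : G ⧸ N, x ≠ 1 → x ^ 2 = 1 → y ≠ 1 → y ^ 2 = 1 → IsConj x y) ∧
    (∃ x y : G ⧸ N, x ≠ y ∧ x ≠ 1 ∧ x ^ 2 = 1 ∧ y ≠ 1 ∧ y ^ 2 = 1 ∧ x * y = y * x) := by
  constructor
  · intro x y hx1 hx2 hy1 hy2
    obtain ⟨t, ht1, ht2, rfl⟩ := quot_lift_invol N hN x hx1 hx2
    obtain ⟨s, hs1, hs2, rfl⟩ := quot_lift_invol N hN y hy1 hy2
    exact (QuotientGroup.mk' N).map_isConj (hconj t s ht1 ht2 hs1 hs2)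
  · obtain ⟨x, y, hxy, hx1, hx2, hy1, hy2, hcomm⟩ := htwo
    have hxi : x⁻¹ = x := by
      rw [inv_eq_iff_mul_eq_one, ← pow_two]; exact hx2
    refine ⟨(x : G ⧸ N), (y : G ⧸ N), ?_, ?_, ?_, ?_, ?_, ?_⟩
    · intro h
      have h1 : x⁻¹ * y ∈ N := QuotientGroup.eq.mp h
      rw [hxi] at h1
      refine quot_invol_not_mem N hN (x * y) ?_ ?_ h1
      · intro h2
        apply hxy
        have : y = x⁻¹ := (inv_eq_of_mul_eq_one_right h2).symm
        rw [this, hxi]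
      · rw [pow_two]
        calc x * y * (x * y) = x * (y * x) * y := by group
          _ = x * (x * y) * y := by rw [hcomm]
          _ = (x * x) * (y * y) := by group
          _ = 1 := by rw [← pow_two, ← pow_two, hx2, hy2, one_mul]
    · intro h
      exact quot_invol_not_mem N hN x hx1 hx2 ((QuotientGroup.eq_one_iff _).mp h)
    · rw [← QuotientGroup.mk_pow, hx2]; rfl
    · intro h
      exact quot_invol_not_mem N hN y hy1 hy2 ((QuotientGroup.eq_one_iff _).mp h)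
    · rw [← QuotientGroup.mk_pow, hy2]; rfl
    · rw [← QuotientGroup.mk_mul, ← QuotientGroup.mk_mul, hcomm]

end Cfsg.Agent.Lib.Helper18.TL
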