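import Mathlib

/-!
# Piece BQ-F2 of S0996 (helper5): the centraliser in `N = N_G(P)` of an element outside `P`
-/

set_option autoImplicit false

namespace Cfsg.Agent.Lib.Helper5.BQ

/-- BQ-F2 -/
theorem cent_outer {G : Type*} [Group G] [Finite G] (p : ℕ) (hp : p.Prime) (P : Subgroup G)
    (hcardP : Nat.card P = p) (e : ℕ) (he0 : 0 < e) (hep : e < p)
    (hcardN : Nat.card (Subgroup.normalizer (P : Set G)) = e * p)
    (hcomm : ∀ a ∈ Subgroup.normalizer (P : Set G), ∀ b ∈ Subgroup.normalizer (P : Set G),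
      a * b * a⁻¹ * b⁻¹ ∈ P)
    (hfix : ∀ y ∈ Subgroup.normalizer (P : Set G), y ∉ P → ∀ u ∈ P, u * y = y * u → u = 1)
    (y : G) (hy : y ∈ Subgroup.normalizer (P : Set G)) (hyP : y ∉ P) :
    Nat.card (Subgroup.normalizer (P : Set G) ⊓ Subgroup.centralizer ({y} : Set G) :
      Subgroup G) = e ∧
    ∀ H : Subgroup G, H ≤ Subgroup.normalizer (P : Set G) → Nat.card H = e → y ∈ H →
      H = Subgroup.normalizer (P : Set G) ⊓ Subgroup.centralizer ({y} : Set G) := by
  classical
  have hPN : P ≤ Subgroup.normalizer (P : Set G) := Subgroup.le_normalizer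
  have hp0 : 0 < p := hp.pos
  -- membership in the centraliser of y
  have hmemC : ∀ c : G, c ∈ Subgroup.centralizer ({y} : Set G) ↔ y * c = c * y := by
    intro c
    rw [Subgroup.mem_centralizer_iff]
    constructor
    · intro h; exact h y (Set.mem_singleton y)
    · intro h z hz
      rw [Set.mem_singleton_iff] at hz; subst hz; exact h
  -- upper bound: C × P → N injective
  have hle : Nat.card (Subgroup.normalizer (P : Set G) ⊓ Subgroup.centralizer ({y} : Set G) :
      Subgroup G) ≤ e := by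
    have hinj : Function.Injective
        (fun q : (Subgroup.normalizer (P : Set G) ⊓ Subgroup.centralizer ({y} : Set G) :
          Subgroup G) × P =>
          (⟨(q.1 : G) * (q.2 : G), Subgroup.mul_mem _ q.1.2.1 (hPN q.2.2)⟩ :
            Subgroup.normalizer (P : Set G))) := by
      rintro ⟨c, u⟩ ⟨c', u'⟩ h
      have h1 : (c : G) * (u : G) = (c' : G) * (u' : G) := congrArg Subtype.val h
      have h2 : (c' : G)⁻¹ * (c : G) = (u' : G) * (u : G)⁻¹ := by
        calc (c' : G)⁻¹ * (c : G) = (c' : G)⁻¹ * ((c : G) * (u : G)) * (u : G)⁻¹ := by group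
          _ = (c' : G)⁻¹ * ((c' : G) * (u' : G)) * (u : G)⁻¹ := by rw [h1]
          _ = (u' : G) * (u : G)⁻¹ := by group
      have h3 : (u' : G) * (u : G)⁻¹ ∈ P := Subgroup.mul_mem _ u'.2 (Subgroup.inv_mem _ u.2)
      have h4 : (c' : G)⁻¹ * (c : G) ∈ Subgroup.centralizer ({y} : Set G) :=
        Subgroup.mul_mem _ (Subgroup.inv_mem _ c'.2.2) c.2.2
      have h5 : (u' : G) * (u : G)⁻¹ = 1 := by
        apply hfix y hy hyP _ h3
        rw [← h2]
        exact ((hmemC _).mp h4).symm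
      have hu : (u' : G) = (u : G) := by
        have : (u' : G) = (u' : G) * (u : G)⁻¹ * (u : G) := by group
        rw [this, h5, one_mul]
      have hc : (c : G) = (c' : G) := by
        have : (c : G) = (c' : G) * ((c' : G)⁻¹ * (c : G)) := by group
        rw [this, h2, h5, mul_one]
      exact Prod.ext (Subtype.ext hc) (Subtype.ext hu.symm)
    have h1 := Nat.card_le_card_of_injective _ hinj
    rw [Nat.card_prod, hcardP, hcardN] at h1
    exact Nat.le_of_mul_le_mul_right h1 hp0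
  -- lower bound: N → P × C injective
  have hge : e ≤ Nat.card (Subgroup.normalizer (P : Set G) ⊓ Subgroup.centralizer ({y} : Set G) :
      Subgroup G) := by
    -- a representative for each value of a ↦ a y a⁻¹ y⁻¹
    have hrep : ∀ v : G, ∃ r : G, r ∈ Subgroup.normalizer (P : Set G) ∧
        ((∃ a ∈ Subgroup.normalizer (P : Set G), a * y * a⁻¹ * y⁻¹ = v) →
          r * y * r⁻¹ * y⁻¹ = v) := by
      intro v
      by_cases h : ∃ a ∈ Subgroup.normalizer (P : Set G), a * y * a⁻¹ * y⁻¹ = v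
      · obtain ⟨a, ha, hav⟩ := h
        exact ⟨a, ha, fun _ => hav⟩
      · exact ⟨1, Subgroup.one_mem _, fun h' => absurd h' h⟩
    choose r hrN hr using hrep
    have hkey : ∀ a ∈ Subgroup.normalizer (P : Set G),
        (r (a * y * a⁻¹ * y⁻¹))⁻¹ * a ∈ (Subgroup.normalizer (P : Set G) ⊓
          Subgroup.centralizer ({y} : Set G) : Subgroup G) := by
      intro a ha
      have h1 := hr (a * y * a⁻¹ * y⁻¹) ⟨a, ha, rfl⟩
      refine ⟨Subgroup.mul_mem _ (Subgroup.inv_mem _ (hrN _)) ha, (hmemC _).mpr ?_⟩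
      have h2 : r (a * y * a⁻¹ * y⁻¹) * y * (r (a * y * a⁻¹ * y⁻¹))⁻¹ = a * y * a⁻¹ := by
        calc r (a * y * a⁻¹ * y⁻¹) * y * (r (a * y * a⁻¹ * y⁻¹))⁻¹
            = (r (a * y * a⁻¹ * y⁻¹) * y * (r (a * y * a⁻¹ * y⁻¹))⁻¹ * y⁻¹) * y := by group
          _ = (a * y * a⁻¹ * y⁻¹) * y := by rw [h1]
          _ = a * y * a⁻¹ := by group
      calc y * ((r (a * y * a⁻¹ * y⁻¹))⁻¹ * a)
          = (r (a * y * a⁻¹ * y⁻¹))⁻¹ * (r (a * y * a⁻¹ * y⁻¹) * y *
              (r (a * y * a⁻¹ * y⁻¹))⁻¹) * a := by group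
        _ = (r (a * y * a⁻¹ * y⁻¹))⁻¹ * (a * y * a⁻¹) * a := by rw [h2]
        _ = (r (a * y * a⁻¹ * y⁻¹))⁻¹ * a * y := by group
    have hinj : Function.Injective
        (fun a : Subgroup.normalizer (P : Set G) =>
          ((⟨(a : G) * y * (a : G)⁻¹ * y⁻¹, hcomm a a.2 y hy⟩ : P),
            (⟨(r ((a : G) * y * (a : G)⁻¹ * y⁻¹))⁻¹ * (a : G), hkey a a.2⟩ :
              (Subgroup.normalizer (P : Set G) ⊓ Subgroup.centralizer ({y} : Set G) :
                Subgroup G)))) := by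
      intro a b hab
      have h1 : (a : G) * y * (a : G)⁻¹ * y⁻¹ = (b : G) * y * (b : G)⁻¹ * y⁻¹ :=
        congrArg Subtype.val (congrArg Prod.fst hab)
      have h2 : (r ((a : G) * y * (a : G)⁻¹ * y⁻¹))⁻¹ * (a : G)
          = (r ((b : G) * y * (b : G)⁻¹ * y⁻¹))⁻¹ * (b : G) :=
        congrArg Subtype.val (congrArg Prod.snd hab)
      rw [h1] at h2
      exact Subtype.ext (mul_left_cancel h2)
    have h1 := Nat.card_le_card_of_injective _ hinj
    rw [Nat.card_prod, hcardP, hcardN, mul_comm p] at h1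
    exact Nat.le_of_mul_le_mul_right h1 hp0
  have hcard := le_antisymm hle hge
  refine ⟨hcard, ?_⟩
  intro H hHN hHcard hyH
  -- H ⊓ P is trivial
  have hcop : Nat.Coprime e p := by
    apply Nat.Coprime.symm
    rw [Nat.Prime.coprime_iff_not_dvd hp]
    intro h
    have := Nat.le_of_dvd he0 h
    omega
  have hHP : H ⊓ P = ⊥ := by
    have h1 : Nat.card (H ⊓ P : Subgroup G) ∣ e := by
      rw [← hHcard]; exact Subgroup.card_dvd_of_le inf_le_left
    have h2 : Nat.card (H ⊓ P : Subgroup G) ∣ p := by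
      rw [← hcardP]; exact Subgroup.card_dvd_of_le inf_le_right
    have h3 : Nat.card (H ⊓ P : Subgroup G) = 1 := Nat.eq_one_of_dvd_coprimes hcop h1 h2
    exact Subgroup.card_eq_one.mp h3
  have hHle : H ≤ Subgroup.normalizer (P : Set G) ⊓ Subgroup.centralizer ({y} : Set G) := by
    intro h hh
    refine ⟨hHN hh, (hmemC _).mpr ?_⟩
    have h1 : y * h * y⁻¹ * h⁻¹ ∈ H ⊓ P :=
      ⟨Subgroup.mul_mem _ (Subgroup.mul_mem _ (Subgroup.mul_mem _ hyH hh) (Subgroup.inv_mem _ hyH))
        (Subgroup.inv_mem _ hh), hcomm y hy h (hHN hh)⟩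
    rw [hHP, Subgroup.mem_bot] at h1
    calc y * h = (y * h * y⁻¹ * h⁻¹) * h * y := by group
      _ = h * y := by rw [h1, one_mul]
  apply Subgroup.eq_of_le_of_card_ge hHle
  rw [hcard, hHcard]

end Cfsg.Agent.Lib.Helper5.BQ
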