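import Mathlib

/-!
# S0997 piece BW-G1 (helper5's project BW): a central involution of a Sylow 2-subgroup

`|G| = 2 ^ b * m`, `b ≥ 1`: there is an involution `w` with `2 ^ b ∣ |C(w)|` (take `w` of order 2
in the centre of a subgroup of order `2 ^ b`).  (Proved by helper20; `hm` is not needed.)
-/

set_option autoImplicit false

namespace Cfsg.Agent.Lib.Helper5.BW

/-- BW-G1 -/
theorem central_invol {G : Type*} [Group G] [Finite G] (b m : ℕ) (hb : 1 ≤ b) (hm : Odd m)
    (hcard : Nat.card G = 2 ^ b * m) :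
    ∃ w : G, orderOf w = 2 ∧ 2 ^ b ∣ Nat.card (Subgroup.centralizer ({w} : Set G)) := by
  haveI : Fact (Nat.Prime 2) := ⟨Nat.prime_two⟩
  have hdvd : 2 ^ b ∣ Nat.card G := by
    rw [hcard]
    exact dvd_mul_right _ _
  obtain ⟨K, hK⟩ := Sylow.exists_subgroup_card_pow_prime 2 hdvd
  have hKp : IsPGroup 2 K := IsPGroup.of_card hK
  haveI hKnt : Nontrivial K := by
    rw [← Finite.one_lt_card_iff_nontrivial, hK]
    exact Nat.one_lt_two_pow (by omega)
  haveI hZnt : Nontrivial (Subgroup.center K) := hKp.center_nontrivial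
  have hZp : IsPGroup 2 (Subgroup.center K) := hKp.to_subgroup _
  have h2 : 2 ∣ Nat.card (Subgroup.center K) := by
    obtain ⟨n, hn⟩ := IsPGroup.iff_card.1 hZp
    have hn0 : n ≠ 0 := by
      rintro rfl
      have h1 := Finite.one_lt_card_iff_nontrivial.2 hZnt
      rw [hn] at h1
      simp at h1
    rw [hn]
    exact dvd_pow_self 2 hn0
  obtain ⟨z, hz⟩ := exists_prime_orderOf_dvd_card' 2 h2
  refine ⟨((z : K) : G), ?_, ?_⟩
  · rw [Subgroup.orderOf_coe, Subgroup.orderOf_coe]
    exact hz
  · have hle : K ≤ Subgroup.centralizer ({((z : K) : G)} : Set G) := by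
      intro k hk
      rw [Subgroup.mem_centralizer_iff]
      intro h hh
      rw [Set.mem_singleton_iff] at hh
      subst hh
      have h3 := (Subgroup.mem_center_iff.1 z.2) ⟨k, hk⟩
      have h4 := congrArg Subtype.val h3
      simpa using h4.symm
    rw [← hK]
    exact Subgroup.card_dvd_of_le hle

end Cfsg.Agent.Lib.Helper5.BW
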