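import Cfsg.Agent.Lib.Helper59.CL1
import Cfsg.Agent.Lib.Helper72.HHCore

/-!
# S3084 piece TRANSPORT (job 1243, helper20): move the package to a group in `Type`
-/

set_option autoImplicit false

namespace Cfsg.Agent.Lib.Helper20.CLTr

universe w v

/-- a copy of `Fin n` carrying no algebraic structure -/
structure Carrier (n : ℕ) : Type where
  val : Fin n

/-- `Carrier n ≃ Fin n` -/
def carrierEquiv (n : ℕ) : Carrier n ≃ Fin n where
  toFun x := x.val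
  invFun i := ⟨i⟩
  left_inv _ := rfl
  right_inv _ := rfl

variable {U : Type*} [AddCommGroup U] [Module (ZMod 2) U]

variable {K : Type*} [Group K]

/-- transport of the package along a group isomorphism -/
theorem transport_aux (n : ℕ) (ρ : Representation (ZMod 2) K U) (q : QuadraticForm (ZMod 2) U)
    {R' : Type w} [Group R'] (Q' : Subgroup R') (hN' : Q'.Normal)
    (e' : R' ⧸ Q' ≃* K) (χ' : ↥Q' →* Multiplicative U)
    (h1 : Cfsg.IsExtraspecial 2 ↥Q') (h2 : Nat.card ↥Q' = 2 ^ (2 * n + 1))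
    (h3 : Function.Surjective χ') (h4 : χ'.ker = Subgroup.center ↥Q')
    (h5 : ∀ (r : R') (a : ↥Q'), χ' ⟨r * a * r⁻¹, hN'.conj_mem (a : R') a.2 r⟩
      = Multiplicative.ofAdd (ρ (e' (r : R' ⧸ Q')) (Multiplicative.toAdd (χ' a))))
    (h6 : ∀ a : ↥Q', a * a = 1 ↔ q (Multiplicative.toAdd (χ' a)) = 0)
    {R : Type v} [Group R] (φ : R ≃* R') :
    ∃ (Q : Subgroup R) (hN : Q.Normal) (e : R ⧸ Q ≃* K)
      (χ : ↥Q →* Multiplicative U), Cfsg.IsExtraspecial 2 ↥Q ∧ Nat.card ↥Q = 2 ^ (2 * n + 1) ∧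
      Function.Surjective χ ∧ χ.ker = Subgroup.center ↥Q ∧
      (∀ (r : R) (a : ↥Q), χ ⟨r * a * r⁻¹, hN.conj_mem (a : R) a.2 r⟩
        = Multiplicative.ofAdd (ρ (e (r : R ⧸ Q)) (Multiplicative.toAdd (χ a)))) ∧
      ∀ a : ↥Q, a * a = 1 ↔ q (Multiplicative.toAdd (χ a)) = 0 := by
  have hN : (Q'.comap φ.toMonoidHom).Normal := hN'.comap _
  have hmap : (Q'.comap φ.toMonoidHom).map (φ : R →* R') = Q' :=
    Subgroup.map_comap_eq_self_of_surjective φ.surjective Q'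
  obtain ⟨ψ, hψ⟩ : ∃ ψ : ↥(Q'.comap φ.toMonoidHom) ≃* ↥Q',
      ∀ a : ↥(Q'.comap φ.toMonoidHom), ((ψ a : ↥Q') : R') = φ (a : R) :=
    ⟨{ toFun := fun a => ⟨φ a.1, a.2⟩
       invFun := fun b => ⟨φ.symm b.1, by
         show φ (φ.symm b.1) ∈ Q'
         rw [φ.apply_symm_apply]; exact b.2⟩
       left_inv := fun a => Subtype.ext (φ.symm_apply_apply a.1)
       right_inv := fun b => Subtype.ext (φ.apply_symm_apply b.1)
       map_mul' := fun a b => Subtype.ext (map_mul φ a.1 b.1) }, fun a => rfl⟩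
  refine ⟨Q'.comap φ.toMonoidHom, hN, (QuotientGroup.congr _ _ φ hmap).trans e',
    χ'.comp ψ.toMonoidHom, ?_, ?_, ?_, ?_, ?_, ?_⟩
  · exact Cfsg.Agent.Lib.Helper72.HH.isExtraspecial_of_mulEquiv ψ.symm h1
  · rw [Nat.card_congr ψ.toEquiv, h2]
  · intro u
    obtain ⟨b, hb⟩ := h3 u
    refine ⟨ψ.symm b, ?_⟩
    show χ' (ψ (ψ.symm b)) = u
    rw [ψ.apply_symm_apply, hb]
  · ext a
    have h7 : a ∈ (χ'.comp ψ.toMonoidHom).ker ↔ ψ a ∈ χ'.ker := Iff.rfl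
    rw [h7, h4, Subgroup.mem_center_iff, Subgroup.mem_center_iff]
    constructor
    · intro h g
      apply ψ.injective
      rw [map_mul, map_mul]
      exact h (ψ g)
    · intro h g
      have h8 := congrArg ψ (h (ψ.symm g))
      rw [map_mul, map_mul, ψ.apply_symm_apply] at h8
      exact h8
  · intro r a
    have h7 := h5 (φ r) (ψ a)
    have h8 : (χ'.comp ψ.toMonoidHom) ⟨r * a * r⁻¹, hN.conj_mem (a : R) a.2 r⟩ =
        χ' ⟨φ r * (ψ a : R') * (φ r)⁻¹, hN'.conj_mem _ (ψ a).2 (φ r)⟩ := by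
      show χ' (ψ ⟨r * a * r⁻¹, hN.conj_mem (a : R) a.2 r⟩) = _
      congr 1
      apply Subtype.ext
      refine (hψ _).trans ?_
      show φ (r * (a : R) * r⁻¹) = φ r * ((ψ a : ↥Q') : R') * (φ r)⁻¹
      rw [map_mul, map_mul, map_inv, hψ a]
    rw [h8, h7]
    rfl
  · intro a
    have h9 := h6 (ψ a)
    have h10 : (χ'.comp ψ.toMonoidHom) a = χ' (ψ a) := rfl
    rw [h10, ← h9]
    constructor
    · intro h
      rw [← map_mul, h, map_one]
    · intro h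
      apply ψ.injective
      rw [map_mul, h, map_one]

end Cfsg.Agent.Lib.Helper20.CLTr

namespace Cfsg.Agent.Lib.Helper59.CL

universe w

variable {U : Type*} [AddCommGroup U] [Module (ZMod 2) U]

variable {K : Type*} [Group K]

/-! ### piece TRANSPORT -/
theorem transport (n : ℕ) (ρ : Representation (ZMod 2) K U) (q : QuadraticForm (ZMod 2) U)
    {R' : Type w} [Group R'] [Finite R'] (Q' : Subgroup R') (hN' : Q'.Normal)
    (e' : R' ⧸ Q' ≃* K) (χ' : ↥Q' →* Multiplicative U)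
    (h1 : Cfsg.IsExtraspecial 2 ↥Q') (h2 : Nat.card ↥Q' = 2 ^ (2 * n + 1))
    (h3 : Function.Surjective χ') (h4 : χ'.ker = Subgroup.center ↥Q')
    (h5 : ∀ (r : R') (a : ↥Q'), χ' ⟨r * a * r⁻¹, hN'.conj_mem (a : R') a.2 r⟩
      = Multiplicative.ofAdd (ρ (e' (r : R' ⧸ Q')) (Multiplicative.toAdd (χ' a))))
    (h6 : ∀ a : ↥Q', a * a = 1 ↔ q (Multiplicative.toAdd (χ' a)) = 0) :
    ∃ (R : Type) (_ : Group R) (_ : Finite R) (Q : Subgroup R) (hN : Q.Normal) (e : R ⧸ Q ≃* K)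
      (χ : ↥Q →* Multiplicative U), Cfsg.IsExtraspecial 2 ↥Q ∧ Nat.card ↥Q = 2 ^ (2 * n + 1) ∧
      Function.Surjective χ ∧ χ.ker = Subgroup.center ↥Q ∧
      (∀ (r : R) (a : ↥Q), χ ⟨r * a * r⁻¹, hN.conj_mem (a : R) a.2 r⟩
        = Multiplicative.ofAdd (ρ (e (r : R ⧸ Q)) (Multiplicative.toAdd (χ a)))) ∧
      ∀ a : ↥Q, a * a = 1 ↔ q (Multiplicative.toAdd (χ a)) = 0 := by
  obtain ⟨e₀, -⟩ : ∃ e₀ : Cfsg.Agent.Lib.Helper20.CLTr.Carrier (Nat.card R') ≃ R', True :=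
    ⟨(Cfsg.Agent.Lib.Helper20.CLTr.carrierEquiv (Nat.card R')).trans (Finite.equivFin R').symm,
      trivial⟩
  let _ : Group (Cfsg.Agent.Lib.Helper20.CLTr.Carrier (Nat.card R')) := e₀.group
  obtain ⟨Q, hN, e, χ, hprops⟩ := Cfsg.Agent.Lib.Helper20.CLTr.transport_aux n ρ q Q' hN' e' χ'
    h1 h2 h3 h4 h5 h6 (e₀.mulEquiv)
  exact ⟨Cfsg.Agent.Lib.Helper20.CLTr.Carrier (Nat.card R'), inferInstance,
    Finite.of_equiv _ e₀.symm, Q, hN, e, χ, hprops⟩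

end Cfsg.Agent.Lib.Helper59.CL
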