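import Mathlib
import Cfsg.Agent.Lib.Helper51.HypPairs
import Cfsg.Agent.Lib.Helper39.H1Defs

/-!
# S5405 piece MDL (job 1490, helper20): the bitmask models `mdl8`, `mdl6`, `mdl4`
-/

set_option autoImplicit false

namespace Cfsg.Agent.Lib.Helper20.H1M

/-- a bit as an element of `ZMod 2` -/
theorem bit_add (x y : Bool) :
    (if (x ^^ y) = true then (1 : ZMod 2) else 0)
      = (if x = true then (1 : ZMod 2) else 0) + (if y = true then (1 : ZMod 2) else 0) := by
  revert x y; decide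

theorem bit_inj (x y : Bool)
    (h : (if x = true then (1 : ZMod 2) else 0) = (if y = true then (1 : ZMod 2) else 0)) :
    x = y := by
  revert x y; decide

theorem bit_decide (a : ZMod 2) :
    (if decide (a = 1) = true then (1 : ZMod 2) else 0) = a := by
  revert a; decide

/-- generic injectivity: masks below `2 ^ d` with equal bits below `d` are equal -/
theorem eq_of_bits (d : ℕ) (a b : ℕ) (ha : a < 2 ^ d) (hb : b < 2 ^ d)
    (h : ∀ i, i < d → a.testBit i = b.testBit i) : a = b := by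
  apply Nat.eq_of_testBit_eq
  intro i
  by_cases hi : i < d
  · exact h i hi
  · have h1 : 2 ^ d ≤ 2 ^ i := Nat.pow_le_pow_right (by norm_num) (by omega)
    rw [Nat.testBit_lt_two_pow (lt_of_lt_of_le ha h1),
      Nat.testBit_lt_two_pow (lt_of_lt_of_le hb h1)]

open Cfsg.Agent.Lib.Helper39.H1


/-! ### dimension 8 -/

/-- inverse of `idx8` -/
def pt8 (i : ℕ) : Fin 4 ⊕ Fin 4 :=
  if h : i < 4 then Sum.inl ⟨i, h⟩ else Sum.inr ⟨(i - 4) % 4, Nat.mod_lt _ (by norm_num)⟩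

theorem idx8_lt (p : Fin 4 ⊕ Fin 4) : idx8 p < 8 := by
  rcases p with i | i
  · show i.val < 8
    have := i.isLt; omega
  · show 4 + i.val < 8
    have := i.isLt; omega

theorem pt8_idx8 (p : Fin 4 ⊕ Fin 4) : pt8 (idx8 p) = p := by
  revert p; decide

theorem idx8_pt8 (i : ℕ) (hi : i < 8) : idx8 (pt8 i) = i := by
  revert i; decide

/-! ### dimension 6 -/

/-- inverse of `idx6` -/
def pt6 (i : ℕ) : (Fin 2 ⊕ Fin 2) ⊕ Fin 2 :=
  if h : i < 2 then Sum.inl (Sum.inl ⟨i, h⟩)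
  else if i < 4 then Sum.inl (Sum.inr ⟨(i - 2) % 2, Nat.mod_lt _ (by norm_num)⟩)
  else Sum.inr ⟨(i - 4) % 2, Nat.mod_lt _ (by norm_num)⟩

theorem idx6_lt (p : (Fin 2 ⊕ Fin 2) ⊕ Fin 2) : idx6 p < 6 := by
  revert p; decide

theorem pt6_idx6 (p : (Fin 2 ⊕ Fin 2) ⊕ Fin 2) : pt6 (idx6 p) = p := by
  revert p; decide

theorem idx6_pt6 (i : ℕ) (hi : i < 6) : idx6 (pt6 i) = i := by
  revert i; decide

/-! ### dimension 4 -/

/-- inverse of `idx4` -/
def pt4 (i : ℕ) : (Fin 1 ⊕ Fin 1) ⊕ Fin 2 :=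
  if i = 0 then Sum.inl (Sum.inl 0)
  else if i = 1 then Sum.inl (Sum.inr 0)
  else Sum.inr ⟨(i - 2) % 2, Nat.mod_lt _ (by norm_num)⟩

theorem idx4_lt (p : (Fin 1 ⊕ Fin 1) ⊕ Fin 2) : idx4 p < 4 := by
  revert p; decide

theorem pt4_idx4 (p : (Fin 1 ⊕ Fin 1) ⊕ Fin 2) : pt4 (idx4 p) = p := by
  revert p; decide

theorem idx4_pt4 (i : ℕ) (hi : i < 4) : idx4 (pt4 i) = i := by
  revert i; decide


end Cfsg.Agent.Lib.Helper20.H1M

namespace Cfsg.Agent.Lib.Helper39.H1

open Cfsg.Agent.Lib.Helper20.H1M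

theorem mdl8 : Mdl (Cfsg.Agent.Lib.Helper51.QPlus 4 (ZMod 2)) 8 dec8 qf8 := by
  refine ⟨?_, ?_, ?_, ?_⟩
  · intro a b
    funext p
    show (if (a ^^^ b).testBit (idx8 p) then (1 : ZMod 2) else 0)
      = (if a.testBit (idx8 p) then (1 : ZMod 2) else 0) + (if b.testBit (idx8 p) then (1 : ZMod 2) else 0)
    rw [Nat.testBit_xor]
    exact bit_add _ _
  · intro x
    refine ⟨Nat.ofBits (fun i : Fin 8 => decide (x (pt8 (i : ℕ)) = 1)), Nat.ofBits_lt_two_pow _, ?_⟩
    funext p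
    show (if (Nat.ofBits (fun i : Fin 8 => decide (x (pt8 (i : ℕ)) = 1))).testBit (idx8 p)
      then (1 : ZMod 2) else 0) = x p
    rw [Nat.testBit_ofBits_lt _ _ (idx8_lt p)]
    show (if decide (x (pt8 (idx8 p)) = 1) = true then (1 : ZMod 2) else 0) = x p
    rw [pt8_idx8]
    exact bit_decide _
  · intro a b ha hb h
    refine eq_of_bits 8 a b ha hb ?_
    intro i hi
    have h1 := congrFun h (pt8 i)
    have h2 : (if a.testBit (idx8 (pt8 i)) then (1 : ZMod 2) else 0)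
        = (if b.testBit (idx8 (pt8 i)) then (1 : ZMod 2) else 0) := h1
    rw [idx8_pt8 i hi] at h2
    exact bit_inj _ _ h2
  · intro n hn
    rw [Cfsg.Agent.Lib.Helper51.QPlus_apply, Fin.sum_univ_four]
    revert n
    decide +kernel

theorem mdl6 : Mdl (Cfsg.Agent.Lib.Helper51.QMinus 2 (ZMod 2) 1 1) 6 dec6 qf6 := by
  refine ⟨?_, ?_, ?_, ?_⟩
  · intro a b
    funext p
    show (if (a ^^^ b).testBit (idx6 p) then (1 : ZMod 2) else 0)
      = (if a.testBit (idx6 p) then (1 : ZMod 2) else 0) + (if b.testBit (idx6 p) then (1 : ZMod 2) else 0)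
    rw [Nat.testBit_xor]
    exact bit_add _ _
  · intro x
    refine ⟨Nat.ofBits (fun i : Fin 6 => decide (x (pt6 (i : ℕ)) = 1)), Nat.ofBits_lt_two_pow _, ?_⟩
    funext p
    show (if (Nat.ofBits (fun i : Fin 6 => decide (x (pt6 (i : ℕ)) = 1))).testBit (idx6 p)
      then (1 : ZMod 2) else 0) = x p
    rw [Nat.testBit_ofBits_lt _ _ (idx6_lt p)]
    show (if decide (x (pt6 (idx6 p)) = 1) = true then (1 : ZMod 2) else 0) = x p
    rw [pt6_idx6]
    exact bit_decide _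
  · intro a b ha hb h
    refine eq_of_bits 6 a b ha hb ?_
    intro i hi
    have h1 := congrFun h (pt6 i)
    have h2 : (if a.testBit (idx6 (pt6 i)) then (1 : ZMod 2) else 0)
        = (if b.testBit (idx6 (pt6 i)) then (1 : ZMod 2) else 0) := h1
    rw [idx6_pt6 i hi] at h2
    exact bit_inj _ _ h2
  · intro n hn
    rw [Cfsg.Agent.Lib.Helper51.QMinus_apply, Fin.sum_univ_two]
    revert n
    decide +kernel

theorem mdl4 : Mdl (Cfsg.Agent.Lib.Helper51.QMinus 1 (ZMod 2) 1 1) 4 dec4 qf4 := by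
  refine ⟨?_, ?_, ?_, ?_⟩
  · intro a b
    funext p
    show (if (a ^^^ b).testBit (idx4 p) then (1 : ZMod 2) else 0)
      = (if a.testBit (idx4 p) then (1 : ZMod 2) else 0) + (if b.testBit (idx4 p) then (1 : ZMod 2) else 0)
    rw [Nat.testBit_xor]
    exact bit_add _ _
  · intro x
    refine ⟨Nat.ofBits (fun i : Fin 4 => decide (x (pt4 (i : ℕ)) = 1)), Nat.ofBits_lt_two_pow _, ?_⟩
    funext p
    show (if (Nat.ofBits (fun i : Fin 4 => decide (x (pt4 (i : ℕ)) = 1))).testBit (idx4 p)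
      then (1 : ZMod 2) else 0) = x p
    rw [Nat.testBit_ofBits_lt _ _ (idx4_lt p)]
    show (if decide (x (pt4 (idx4 p)) = 1) = true then (1 : ZMod 2) else 0) = x p
    rw [pt4_idx4]
    exact bit_decide _
  · intro a b ha hb h
    refine eq_of_bits 4 a b ha hb ?_
    intro i hi
    have h1 := congrFun h (pt4 i)
    have h2 : (if a.testBit (idx4 (pt4 i)) then (1 : ZMod 2) else 0)
        = (if b.testBit (idx4 (pt4 i)) then (1 : ZMod 2) else 0) := h1
    rw [idx4_pt4 i hi] at h2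
    exact bit_inj _ _ h2
  · intro n hn
    rw [Cfsg.Agent.Lib.Helper51.QMinus_apply, Fin.sum_univ_one]
    revert n
    decide +kernel

end Cfsg.Agent.Lib.Helper39.H1
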