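import Mathlib
import Cfsg.Agent.Lib.Helper78.HarDefs

/-!
# Piece CYC of project HAR (S1235, helper78)

A finite group with a normal cyclic subgroup of index at most 8 has all sections of exponent two
of order at most 16.
-/

set_option autoImplicit false

namespace Cfsg.Agent.Lib.Helper20.Har

open Cfsg.Agent.Lib.Helper78.Har

theorem elemSec_of_cyclic {X : Type*} [Group X] [Finite X] (C : Subgroup X) (hCn : C.Normal)
    (hC : IsCyclic C) (hidx : Nat.card X ≤ 8 * Nat.card C) : ElemSecLE X 16 := by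
  intro P M hMP _ hsq
  -- index of C
  have hCpos : 0 < Nat.card C := Nat.card_pos
  have hCidx : C.index ≤ 8 := by
    have h1 : Nat.card C * C.index = Nat.card X := C.card_mul_index
    by_contra hcon
    rw [not_le] at hcon
    have : 8 * Nat.card C < Nat.card C * C.index := by nlinarith
    omega
  -- relative index
  have hrel : C.relIndex P ≤ 8 := by
    have hd : C.relIndex P ∣ C.index := Subgroup.relIndex_dvd_index_of_normal C P
    have hpos : 0 < C.index := Nat.pos_of_ne_zero (Subgroup.index_ne_zero_of_finite)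
    exact (Nat.le_of_dvd hpos hd).trans hCidx
  -- Q = P ⊓ C
  have hQcard : Nat.card ↥(C.subgroupOf P) * C.relIndex P = Nat.card P := by
    rw [Subgroup.relIndex]; exact (C.subgroupOf P).card_mul_index
  have hQ' : Nat.card ↥(C.subgroupOf P) = Nat.card ↥(C ⊓ P) := by
    rw [← Subgroup.inf_subgroupOf_right C P]
    exact Nat.card_congr (Subgroup.subgroupOfEquivOfLe inf_le_right).toEquiv
  -- Q is cyclic
  have : IsCyclic C := hC
  have hQc : IsCyclic ↥(C ⊓ P) := Subgroup.isCyclic_of_le (inf_le_left : C ⊓ P ≤ C)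
  obtain ⟨c, hc⟩ := IsCyclic.exists_generator (α := ↥(C ⊓ P))
  have hord : orderOf c = Nat.card ↥(C ⊓ P) := orderOf_eq_card_of_forall_mem_zpowers hc
  have hord' : orderOf (c : X) = Nat.card ↥(C ⊓ P) := by
    rw [Subgroup.orderOf_coe]; exact hord
  have hcP : (c : X) ∈ P := c.2.2
  have hc2 : (c : X) ^ 2 ∈ M := hsq _ hcP
  have hle : Subgroup.zpowers ((c : X) ^ 2) ≤ M := by
    rw [Subgroup.zpowers_le]; exact hc2
  have hcard2 : Nat.card ↥(Subgroup.zpowers ((c : X) ^ 2)) ≤ Nat.card M :=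
    Subgroup.card_le_of_le hle
  rw [Nat.card_zpowers] at hcard2
  have hpow : orderOf ((c : X) ^ 2) = orderOf (c : X) / Nat.gcd (orderOf (c : X)) 2 :=
    orderOf_pow' (c : X) (by norm_num)
  have hg : Nat.gcd (orderOf (c : X)) 2 ∣ orderOf (c : X) := Nat.gcd_dvd_left _ _
  have hg2 : Nat.gcd (orderOf (c : X)) 2 ≤ 2 := Nat.le_of_dvd (by norm_num) (Nat.gcd_dvd_right _ _)
  have hmul : orderOf ((c : X) ^ 2) * Nat.gcd (orderOf (c : X)) 2 = orderOf (c : X) := by
    rw [hpow]; exact Nat.div_mul_cancel hg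
  have hQle : Nat.card ↥(C ⊓ P) ≤ 2 * Nat.card M := by
    rw [← hord', ← hmul]
    calc orderOf ((c : X) ^ 2) * Nat.gcd (orderOf (c : X)) 2
        ≤ orderOf ((c : X) ^ 2) * 2 := Nat.mul_le_mul_left _ hg2
      _ ≤ Nat.card M * 2 := Nat.mul_le_mul_right _ hcard2
      _ = 2 * Nat.card M := by ring
  rw [← hQcard, hQ']
  calc Nat.card ↥(C ⊓ P) * C.relIndex P ≤ (2 * Nat.card M) * 8 := Nat.mul_le_mul hQle hrel
    _ = 16 * Nat.card M := by ring

end Cfsg.Agent.Lib.Helper20.Har
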