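import Mathlib
import Cfsg.Agent.Lib.Helper20.Mackey
import Cfsg.Agent.Lib.Helper20.Ito
import Cfsg.Agent.Lib.Helper83.LinearCount
import Cfsg.Agent.Lib.Helper83.Quot
import Cfsg.Agent.S0089

set_option autoImplicit false
open scoped ComplexConjugate
open Cfsg

namespace Cfsg.Agent.Lib.Helper20

universe u

section scalar

variable {H : Type*} [Group H] [Finite H]

/-- if the commutator subgroup of `M` acts by scalars, `M` has abelian `p`-subgroups and the
character restricted to `M` is a multiple of an irreducible character, then `M` acts by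
scalars -/
theorem scalar_of_comm_scalar {n : ℕ} (ρ : Representation ℂ H (Fin n → ℂ)) (hn : n ≠ 0)
    (M : Subgroup H)
    (hA : ∀ (p : ℕ) [Fact p.Prime] (P : Subgroup H), P ≤ M → IsPGroup p P →
      ∀ a ∈ P, ∀ b ∈ P, a * b = b * a)
    (hcomm : ∀ z ∈ ⁅M, M⁆, ∃ c : ℂ, ρ z = c • LinearMap.id)
    (φ : M → ℂ) (e : ℂ) (hφ : IsIrrCharacter M φ)
    (hres : (fun m : M => ρ.character m) = e • φ) :
    ∀ m ∈ M, ∃ c : ℂ, ρ m = c • LinearMap.id := by
  classical
  set K : Subgroup H := MonoidHom.ker ρ with hK
  have hKn : K.Normal := MonoidHom.normal_ker ρ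
  set K' : Subgroup M := K.subgroupOf M with hK'
  have hK'n : K'.Normal := Subgroup.normal_subgroupOf
  have hQ : ∀ p : ℕ, p.Prime → ∀ P : Sylow p (M ⧸ K'), IsMulCommutative P := by
    intro p hp P
    have := Fact.mk hp
    obtain ⟨P₀, rfl⟩ := Sylow.mapSurjective_surjective (QuotientGroup.mk'_surjective K') p P
    refine ⟨⟨fun a b => ?_⟩⟩
    obtain ⟨a, ha⟩ := a
    obtain ⟨b, hb⟩ := b
    have ha' : a ∈ (P₀ : Subgroup M).map (QuotientGroup.mk' K') := by
      rw [← Sylow.coe_mapSurjective (QuotientGroup.mk'_surjective K')]; exact ha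
    have hb' : b ∈ (P₀ : Subgroup M).map (QuotientGroup.mk' K') := by
      rw [← Sylow.coe_mapSurjective (QuotientGroup.mk'_surjective K')]; exact hb
    obtain ⟨a₀, ha₀, rfl⟩ := ha'
    obtain ⟨b₀, hb₀, rfl⟩ := hb'
    apply Subtype.ext
    show QuotientGroup.mk' K' a₀ * QuotientGroup.mk' K' b₀ =
      QuotientGroup.mk' K' b₀ * QuotientGroup.mk' K' a₀
    rw [← map_mul, ← map_mul]
    congr 1
    apply Subtype.ext
    have hP : IsPGroup p ((P₀ : Subgroup M).map M.subtype) := P₀.2.map M.subtype
    exact hA p _ (by rintro _ ⟨x, -, rfl⟩; exact x.2) hP a₀ ⟨a₀, ha₀, rfl⟩ b₀ ⟨b₀, hb₀, rfl⟩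
  have taunt := Cfsg.Agent.S0089.result hQ
  have hcM : (commutator M).map M.subtype = ⁅M, M⁆ := by
    rw [commutator_def, Subgroup.map_commutator, ← MonoidHom.range_eq_map, Subgroup.range_subtype]
  have h3 : ∀ z : M, z ∈ commutator M → ρ (z : H) = 1 := by
    intro z hz
    have hzH : (z : H) ∈ ⁅M, M⁆ := by
      rw [← hcM]; exact ⟨z, hz, rfl⟩
    obtain ⟨c, hc⟩ := hcomm (z : H) hzH
    have hzQ : (QuotientGroup.mk' K' z) ∈ commutator (M ⧸ K') ⊓ Subgroup.center (M ⧸ K') := by
      refine ⟨?_, ?_⟩
      · have hle : (commutator M).map (QuotientGroup.mk' K') ≤ commutator (M ⧸ K') := by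
          rw [commutator_def, commutator_def, Subgroup.map_commutator]
          exact Subgroup.commutator_mono le_top le_top
        exact hle ⟨z, hz, rfl⟩
      · show _ ∈ Subgroup.center _
        rw [Subgroup.mem_center_iff]
        intro q
        obtain ⟨m, rfl⟩ := QuotientGroup.mk'_surjective K' q
        rw [← map_mul, ← map_mul]
        show (QuotientGroup.mk (m * z) : M ⧸ K') = QuotientGroup.mk (z * m)
        rw [QuotientGroup.eq, hK', Subgroup.mem_subgroupOf, hK, MonoidHom.mem_ker]
        have h4 : ρ ((z : H) * (m : H)) = ρ ((m : H) * (z : H)) := by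
          rw [map_mul, map_mul, hc]
          ext v
          simp
        show ρ (((m : H) * (z : H))⁻¹ * ((z : H) * (m : H))) = 1
        rw [map_mul, h4, ← map_mul, inv_mul_cancel, map_one]
    rw [taunt, Subgroup.mem_bot] at hzQ
    have h5 : z ∈ K' := (QuotientGroup.eq_one_iff z).mp hzQ
    rw [hK', Subgroup.mem_subgroupOf, hK, MonoidHom.mem_ker] at h5
    exact h5
  have hn' : ρ.character 1 = (n : ℂ) := by
    rw [Representation.char_one]
    simp
  have he1 : e * φ 1 = (n : ℂ) := by
    have := congrFun hres 1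
    rw [← hn']
    exact this.symm
  have he0 : e ≠ 0 := by
    intro h0
    rw [h0, zero_mul] at he1
    exact hn (by exact_mod_cast he1.symm)
  have h4 : ∀ c ∈ commutator M, φ c = φ 1 := by
    intro c hc
    have h5 : ρ.character (c : H) = ρ.character 1 :=
      (Helper83.char_eq_iff_rho_eq_one ρ (c : H)).mpr (h3 c hc)
    have h6 := congrFun hres c
    have h7 := congrFun hres 1
    have h8 : e * φ c = e * φ 1 := by
      have h6' : ρ.character (c : H) = e * φ c := h6
      have h7' : ρ.character ((1 : M) : H) = e * φ 1 := h7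
      rw [← h6', ← h7', h5]
      rfl
    exact mul_left_cancel₀ he0 h8
  obtain ⟨φ', hφ', hφ'eq⟩ := Helper83.irr_deflate (commutator M) hφ h4
  have h5 : φ 1 = 1 := by
    rw [← hφ'eq 1]
    exact Helper83.irr_comm_degree (A := Abelianization M) hφ'
  have he : e = (n : ℂ) := by rw [← he1, h5, mul_one]
  intro m hm
  apply (Helper4.norm_char_eq_iff ρ m).mp
  have h6 : ρ.character m = e * φ ⟨m, hm⟩ := congrFun hres ⟨m, hm⟩
  rw [h6, norm_mul, Helper83.irr_linear_norm hφ h5, mul_one, he]
  simp

end scalar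

section degree

variable {H : Type*} [Group H] [Fintype H]

/-- an irreducible character of `N` afforded by scalar matrices has degree one -/
theorem degree_one_of_scalar {n : ℕ} (ρ : Representation ℂ H (Fin n → ℂ)) (N : Subgroup H)
    [Fintype N] (hN : IsIrrCharacter N (fun x : N => ρ.character x))
    (hsc : ∀ x ∈ N, ∃ c : ℂ, ρ x = c • LinearMap.id) : ρ.character 1 = 1 := by
  have h1 := Helper35.classInner_irr' hN hN
  rw [if_pos rfl] at h1
  unfold classInner at h1
  have h2 : ∀ x : N, ρ.character (x : H) * conj (ρ.character (x : H)) = (n : ℂ) ^ 2 := by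
    intro x
    have h3 : ‖ρ.character (x : H)‖ = (Module.finrank ℂ (Fin n → ℂ) : ℝ) :=
      (Helper4.norm_char_eq_iff ρ (x : H)).mpr (hsc x x.2)
    rw [Complex.mul_conj']
    rw [h3]
    simp
  rw [Finset.sum_congr rfl (fun x _ => h2 x), Finset.sum_const, Finset.card_univ, nsmul_eq_mul,
    Nat.card_eq_fintype_card] at h1
  have hN0 : (Fintype.card N : ℂ) ≠ 0 := by exact_mod_cast (Fintype.card_pos (α := N)).ne'
  have h4 : (n : ℂ) ^ 2 = 1 := by
    field_simp at h1
    exact h1
  have h5 : n ^ 2 = 1 := by exact_mod_cast h4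
  have h6 : n = 1 := by
    rcases Nat.eq_zero_or_pos n with h0 | hpos
    · rw [h0] at h5; simp at h5
    · nlinarith
  rw [Representation.char_one]
  simp [h6]

end degree

section dser

variable {H : Type*} [Group H]

/-- the derived series of a subgroup, as subgroups of the ambient group -/
def dser (N : Subgroup H) : ℕ → Subgroup H
  | 0 => N
  | (i + 1) => ⁅dser N i, dser N i⁆

theorem dser_normal (N : Subgroup H) [hN : N.Normal] (i : ℕ) : (dser N i).Normal := by
  induction i with
  | zero => exact hN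
  | succ i ih => exact @Subgroup.commutator_normal _ _ (dser N i) (dser N i) ih ih

theorem dser_le (N : Subgroup H) : ∀ i, dser N i ≤ N
  | 0 => le_rfl
  | (i + 1) => by
    have h1 : ⁅dser N i, dser N i⁆ ≤ dser N i := by
      rw [Subgroup.commutator_le]
      intro a ha b hb
      rw [commutatorElement_def]
      exact (dser N i).mul_mem ((dser N i).mul_mem ((dser N i).mul_mem ha hb)
        ((dser N i).inv_mem ha)) ((dser N i).inv_mem hb)
    exact h1.trans (dser_le N i)

theorem dser_eq_map (N : Subgroup H) : ∀ i, dser N i = (derivedSeries N i).map N.subtype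
  | 0 => by
    show N = (⊤ : Subgroup N).map N.subtype
    rw [← MonoidHom.range_eq_map, Subgroup.range_subtype]
  | (i + 1) => by
    show ⁅dser N i, dser N i⁆ = (⁅derivedSeries N i, derivedSeries N i⁆).map N.subtype
    rw [Subgroup.map_commutator, dser_eq_map N i]

theorem exists_dser_eq_bot (N : Subgroup H) (hs : Group.IsSolvable N) : ∃ k, dser N k = ⊥ := by
  obtain ⟨k, hk⟩ := hs.solvable
  refine ⟨k, ?_⟩
  rw [dser_eq_map, hk, Subgroup.map_bot]

end dser

/-- if the restriction of `ψ` to every normal subgroup of `H` inside `N` is homogeneous, where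
`N` is solvable with abelian `p`-subgroups and `ψ` restricts irreducibly to `N`, then `ψ` is
linear -/
theorem homog_degree_one {H : Type*} [Group H] [Fintype H] (N : Subgroup H) [hN : N.Normal]
    (hsolv : Group.IsSolvable N)
    (hA : ∀ (p : ℕ) [Fact p.Prime] (P : Subgroup H), P ≤ N → IsPGroup p P →
      ∀ a ∈ P, ∀ b ∈ P, a * b = b * a)
    (ψ : H → ℂ) (hψ : IsIrrCharacter H ψ) (hψN : IsIrrCharacter N (fun n : N => ψ n))
    (hhom : ∀ M : Subgroup H, M.Normal → M ≤ N →
      ∃ (φ : M → ℂ) (e : ℂ), IsIrrCharacter M φ ∧ (fun m : M => ψ m) = e • φ) :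
    ψ 1 = 1 := by
  classical
  let _ : Fintype N := Fintype.ofFinite _
  have h1 := Helper83.irr_one_ne_zero hψ
  obtain ⟨n, ρ, hρ, rfl⟩ := hψ
  have hn : n ≠ 0 := by
    intro h0
    apply h1
    rw [Representation.char_one]
    simp [h0]
  obtain ⟨k, hk⟩ := exists_dser_eq_bot N hsolv
  have key : ∀ j, j ≤ k → ∀ m ∈ dser N (k - j), ∃ c : ℂ, ρ m = c • LinearMap.id := by
    intro j
    induction j with
    | zero =>
      intro _ m hm
      rw [Nat.sub_zero, hk, Subgroup.mem_bot] at hm
      refine ⟨1, ?_⟩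
      rw [hm, map_one, one_smul]
      rfl
    | succ j ih =>
      intro hj
      have hM := dser_normal N (k - (j + 1))
      have hMN := dser_le N (k - (j + 1))
      obtain ⟨φ, e, hφ, hres⟩ := hhom _ hM hMN
      have hstep : dser N (k - j) = ⁅dser N (k - (j + 1)), dser N (k - (j + 1))⁆ := by
        have : k - j = (k - (j + 1)) + 1 := by omega
        rw [this]
        rfl
      refine scalar_of_comm_scalar ρ hn (dser N (k - (j + 1)))
        (fun p _ P hP => hA p P (hP.trans hMN)) ?_ φ e hφ hres
      intro z hz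
      rw [← hstep] at hz
      exact ih (by omega) z hz
  have hall := key k le_rfl
  rw [Nat.sub_self] at hall
  exact degree_one_of_scalar ρ N hψN hall

end Cfsg.Agent.Lib.Helper20
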