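import Cfsg.Agent.Lib.Helper96.HyDefs
import Cfsg.Agent.Lib.Helper96.SpBlock
import Cfsg.Agent.Lib.Helper98.O72Defs
import Cfsg.Agent.Lib.Helper98.O72Fix

/-!
# Project HY (S5992, helper96), piece SUBBLK

Invariant nondegenerate subspaces of `range (T - 1)` of dimension `blk * b`, for an isometry `T`
of prime order of a symmetric form (port of `Sp.exists_sub_atoms`; the block hypothesis is passed
in).  (Proved by helper20.)
-/

set_option autoImplicit false
set_option linter.unusedSectionVars false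
set_option linter.unusedVariables false

namespace Cfsg.Agent.Lib.Helper20.Hy

open Module Polynomial Cfsg.Agent.Lib.Helper96.Sp Cfsg.Agent.Lib.Helper96.Hy
  Cfsg.Agent.Lib.Helper47

universe u

variable {F : Type u} [Field F] [Fintype F] {V : Type u} [AddCommGroup V] [Module F V]
  [FiniteDimensional F V] {B : LinearMap.BilinForm F V}

-- PIECE SUBBLK
theorem sub_blk (hS : B.IsSymm) (h2 : (2 : F) ≠ 0) (hN : ND B ⊤) (T : Module.End F V)
    (hT : Isom B T) (r : ℕ) [Fact r.Prime] (hrq : ¬ r ∣ Fintype.card F) (hr0 : (r : F) ≠ 0)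
    (hTr : T ^ r = 1)
    (hblock : ∀ W : Submodule F V, W.map T ≤ W → ND B W → W ≤ LinearMap.range (T - 1) →
      W ≠ ⊥ → ∃ P : Submodule F V, P ≤ W ∧ P.map T ≤ P ∧ ND B P ∧
        finrank F P = blk (Fintype.card F) r)
    (b : ℕ) (hb : blk (Fintype.card F) r * b ≤ finrank F (LinearMap.range (T - 1))) :
    ∃ W₁ : Submodule F V, W₁ ≤ LinearMap.range (T - 1) ∧ W₁.map T ≤ W₁ ∧ ND B W₁ ∧
      finrank F W₁ = blk (Fintype.card F) r * b := by
  obtain ⟨hi, -, -, -, hRinv, -, -, -, -⟩ :=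
    Cfsg.Agent.Lib.Helper96.BG.pow_one_setup T r hrq hr0 hTr
  have hRnd : ND B (LinearMap.range (T - 1)) :=
    Cfsg.Agent.Lib.Helper98.O72.nd_range hS h2 hN T hT r hrq hr0 hTr
  have hc1 : 1 ≤ blk (Fintype.card F) r := blk_pos _ _ hi
  -- the stronger statement proved by induction
  have key : ∀ b : ℕ, blk (Fintype.card F) r * b ≤ finrank F (LinearMap.range (T - 1)) →
      ∃ Q : Submodule F V, Q ≤ LinearMap.range (T - 1) ∧ Q.map T ≤ Q ∧ ND B Q ∧
        finrank F Q = blk (Fintype.card F) r * b ∧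
        ND B (LinearMap.range (T - 1) ⊓ B.orthogonal Q) ∧
        (LinearMap.range (T - 1) ⊓ B.orthogonal Q).map T ≤
          LinearMap.range (T - 1) ⊓ B.orthogonal Q := by
    intro b
    induction b with
    | zero =>
      intro _
      refine ⟨⊥, bot_le, by rw [Submodule.map_bot], nd_bot, by rw [finrank_bot, mul_zero], ?_, ?_⟩
      · rw [LinearMap.BilinForm.orthogonal_bot, inf_top_eq]
        exact hRnd
      · rw [LinearMap.BilinForm.orthogonal_bot, inf_top_eq]
        exact hRinv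
    | succ b ih =>
      intro hb'
      have hmul : blk (Fintype.card F) r * (b + 1) =
          blk (Fintype.card F) r * b + blk (Fintype.card F) r := by ring
      obtain ⟨Q, hQR, hQinv, hQnd, hQfin, hQrnd, hQrinv⟩ := ih (by omega)
      obtain ⟨-, -, hfin⟩ := Cfsg.Agent.Lib.Helper98.O72.nd_rel hS h2 hQnd hRnd hQR
      have hne : LinearMap.range (T - 1) ⊓ B.orthogonal Q ≠ ⊥ := by
        intro h
        rw [h, finrank_bot] at hfin
        omega
      obtain ⟨P, hPle, hPinv, hPnd, hPfin⟩ := hblock _ hQrinv hQrnd inf_le_left hne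
      have horth : Orth B Q P := orth_iff_le_perp.mpr (le_trans hPle inf_le_right)
      have hsup := Cfsg.Agent.Lib.Helper98.O72.nd_sup hS h2 hQnd hPnd horth
      refine ⟨Q ⊔ P, sup_le hQR (le_trans hPle inf_le_left), ?_, hsup.1, ?_, ?_, ?_⟩
      · rw [Submodule.map_sup]
        exact sup_le_sup hQinv hPinv
      · rw [hsup.2, hQfin, hPfin, hmul]
      · rw [perp_sup, ← inf_assoc]
        exact (Cfsg.Agent.Lib.Helper98.O72.nd_rel hS h2 hPnd hQrnd hPle).1
      · rw [perp_sup, ← inf_assoc]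
        rintro _ ⟨x, hx, rfl⟩
        exact ⟨hQrinv ⟨x, hx.1, rfl⟩, perp_invariant hN hT hPinv ⟨x, hx.2, rfl⟩⟩
  obtain ⟨Q, hQR, hQinv, hQnd, hQfin, -, -⟩ := key b hb
  exact ⟨Q, hQR, hQinv, hQnd, hQfin⟩

end Cfsg.Agent.Lib.Helper20.Hy
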