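import Mathlib
import Cfsg.Agent.Lib.Helper58.JEDefs
import Cfsg.Agent.Lib.Helper94.JcTH

/-!
# Project JE (S2948, helper58), piece SYL

`P ⊴ K` of index 3, `P ≤ T` (a 2-group), `J(T)` normalizes `K` and `P`: a Sylow 2-subgroup
`S₁ ⊇ J(T)` of `K ⊔ J(T)` lies in `T` (`P ≤ S₁`, `S₁ ⊓ K = P`, `K ⊔ J(T) = K J(T)`), and then
`J(S₁) = J(T)`.  (Proved by helper20.)
-/

set_option autoImplicit false

namespace Cfsg.Agent.Lib.Helper20.JE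

open Cfsg.Agent.Lib.Helper58.JE Cfsg.Agent.Lib.Helper72.JL Cfsg.Agent.Lib.Helper72.SC
  Cfsg.Agent.Lib.Helper78.Jc
open scoped Pointwise

universe u

/-- a divisor of a power of two which divides an odd number is one -/
theorem jesyl_one_of_dvd {d n m : ℕ} (h1 : d ∣ 2 ^ n) (h2 : d ∣ m) (hm : Odd m) : d = 1 := by
  obtain ⟨j, -, rfl⟩ := (Nat.dvd_prime_pow Nat.prime_two).1 h1
  rcases Nat.eq_zero_or_pos j with h0 | h0
  · rw [h0, pow_zero]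
  · exfalso
    have h3 : 2 ∣ m := (dvd_pow_self 2 (by omega)).trans h2
    rcases hm with ⟨t, rfl⟩
    omega

theorem syl : SylStmt.{u} := by
  intro G _ _ T K P hT2 hPT hPK hKP hJK hJP hidx S₁ hS hJS
  obtain ⟨hS₁le, hS₁2, hS₁odd⟩ := hS
  have hJT : Cfsg.thompsonSubgroupOf 2 T ≤ T := Cfsg.Agent.Lib.Helper94.Jc.th_le_self T
  have hP2 : IsPGroup 2 ↥P := hT2.to_le hPT
  -- (1) `P ≤ S₁`
  have hKJP : K ⊔ Cfsg.thompsonSubgroupOf 2 T ≤ Subgroup.normalizer (P : Set G) :=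
    sup_le hKP hJP
  have hS₁P : S₁ ≤ Subgroup.normalizer (P : Set G) := hS₁le.trans hKJP
  have hsup2 : IsPGroup 2 ↥(S₁ ⊔ P) := IsPGroup.to_sup_of_normal_right' hS₁2 hP2 hS₁P
  have hsuple : S₁ ⊔ P ≤ K ⊔ Cfsg.thompsonSubgroupOf 2 T :=
    sup_le hS₁le (hPK.trans le_sup_left)
  have hPS₁ : P ≤ S₁ := by
    have h1 : S₁.relIndex (S₁ ⊔ P) * (S₁ ⊔ P).relIndex (K ⊔ Cfsg.thompsonSubgroupOf 2 T) =
        S₁.relIndex (K ⊔ Cfsg.thompsonSubgroupOf 2 T) :=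
      Subgroup.relIndex_mul_relIndex _ _ _ le_sup_left hsuple
    obtain ⟨n, hn⟩ := IsPGroup.iff_card.1 hsup2
    have h2 : S₁.relIndex (S₁ ⊔ P) ∣ 2 ^ n := by
      rw [← hn]
      exact Subgroup.relIndex_dvd_card _ _
    have h3 : S₁.relIndex (S₁ ⊔ P) = 1 :=
      jesyl_one_of_dvd h2 (Dvd.intro _ h1) hS₁odd
    exact le_sup_right.trans (Subgroup.relIndex_eq_one.1 h3)
  -- (2) `S₁ ⊓ K = P`
  have hSK : S₁ ⊓ K ≤ P := by
    have hle : P ≤ S₁ ⊓ K := le_inf hPS₁ hPK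
    have h1 : P.relIndex (S₁ ⊓ K) * (S₁ ⊓ K).relIndex K = P.relIndex K :=
      Subgroup.relIndex_mul_relIndex _ _ _ hle inf_le_right
    have hSK2 : IsPGroup 2 ↥(S₁ ⊓ K) := hS₁2.to_le inf_le_left
    obtain ⟨n, hn⟩ := IsPGroup.iff_card.1 hSK2
    have h2 : P.relIndex (S₁ ⊓ K) ∣ 2 ^ n := by
      rw [← hn]
      exact Subgroup.relIndex_dvd_card _ _
    have h3 : P.relIndex (S₁ ⊓ K) = 1 :=
      jesyl_one_of_dvd h2 (Dvd.intro _ h1) (by rw [hidx]; exact ⟨1, by norm_num⟩)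
    exact Subgroup.relIndex_eq_one.1 h3
  -- (3) `S₁ ≤ T`
  have hS₁T : S₁ ≤ T := by
    intro s hs
    have hs' : s ∈ ((K ⊔ Cfsg.thompsonSubgroupOf 2 T : Subgroup G) : Set G) := hS₁le hs
    rw [Subgroup.coe_mul_of_right_le_normalizer_left K _ hJK] at hs'
    obtain ⟨k, hk, j, hj, rfl⟩ := Set.mem_mul.mp hs'
    have hkS : k ∈ S₁ := by
      have h1 : k = k * j * j⁻¹ := by group
      rw [h1]
      exact S₁.mul_mem hs (S₁.inv_mem (hJS hj))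
    exact T.mul_mem (hPT (hSK ⟨hkS, hk⟩)) (hJT hj)
  -- (4) the maximal elementary abelian subgroups of `S₁` and `T` coincide
  obtain ⟨A₀, hA₀⟩ := Cfsg.Agent.Lib.Helper94.Jc.th_exists T
  have hA₀S : A₀ ≤ S₁ := (Cfsg.Agent.Lib.Helper94.Jc.th_le T A₀ hA₀).trans hJS
  have h12 : ∀ A : Subgroup G, IsMaxEA S₁ A → IsMaxEA T A := by
    intro A hA
    refine ⟨hA.1.trans hS₁T, hA.2.1, hA.2.2.1, ?_⟩
    intro B hBT hBc hB2
    exact (hA₀.2.2.2 B hBT hBc hB2).trans (hA.2.2.2 A₀ hA₀S hA₀.2.1 hA₀.2.2.1)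
  have h21 : ∀ A : Subgroup G, IsMaxEA T A → IsMaxEA S₁ A := by
    intro A hA
    refine ⟨(Cfsg.Agent.Lib.Helper94.Jc.th_le T A hA).trans hJS, hA.2.1, hA.2.2.1, ?_⟩
    intro B hBS hBc hB2
    exact hA.2.2.2 B (hBS.trans hS₁T) hBc hB2
  apply le_antisymm
  · exact Cfsg.Agent.Lib.Helper94.Jc.th_le_of_forall S₁ _
      (fun A hA => Cfsg.Agent.Lib.Helper94.Jc.th_le T A (h12 A hA))
  · exact Cfsg.Agent.Lib.Helper94.Jc.th_le_of_forall T _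
      (fun A hA => Cfsg.Agent.Lib.Helper94.Jc.th_le S₁ A (h21 A hA))

end Cfsg.Agent.Lib.Helper20.JE
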