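import Mathlib
import Cfsg.Prelude.Def_LieTypeChar
import Cfsg.Agent.Lib.Lead.LTBCore
import Cfsg.Agent.Lib.Lead.LTBDefs

/-!
# Piece LTB-PSU of S2363 (lead): the order of `PSU_n(q)`, `n ≥ 3`, against its `p`-part
-/

set_option autoImplicit false

namespace Cfsg.Agent.Lib.Lead.LTB

open Cfsg

theorem ltbpsu_pair (q a : ℕ) (hq : 2 ≤ q) :
    (q ^ a - 1) * (q ^ (a + 1) + 1) < q ^ (2 * a + 1) := by
  have hQ : 1 ≤ q ^ a := Nat.one_le_pow _ _ (by omega)
  obtain ⟨R, hR⟩ : ∃ R, q ^ a = R + 1 := ⟨q ^ a - 1, by omega⟩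
  have e1 : q ^ (a + 1) = q ^ a * q := pow_succ q a
  have e2 : q ^ (2 * a + 1) = q ^ a * q ^ a * q := by rw [pow_succ, two_mul, pow_add]
  rw [e1, e2, hR, Nat.add_sub_cancel]
  nlinarith [Nat.mul_le_mul_left R hq]

theorem ltbpsu_even (q : ℕ) (hq : 2 ≤ q) (k : ℕ) :
    ∏ i ∈ Finset.range (2 * k + 2),
        (if Even (i + 1) then q ^ (i + 1 + 1) + 1 else q ^ (i + 1 + 1) - 1)
      < q ^ ((k + 1) * (2 * k + 5)) := by
  induction k with
  | zero =>
    have e : Finset.range (2 * 0 + 2) = Finset.range (0 + 1 + 1) := rfl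
    rw [e, Finset.prod_range_succ, Finset.prod_range_succ, Finset.prod_range_zero, one_mul]
    have e1 : ¬ Even (0 + 1) := by decide
    have e2 : Even (0 + 1 + 1) := by decide
    rw [if_neg e1, if_pos e2]
    exact ltbpsu_pair q (0 + 1 + 1) hq
  | succ k ih =>
    have e : 2 * (k + 1) + 2 = (2 * k + 2) + 1 + 1 := by ring
    rw [e, Finset.prod_range_succ, Finset.prod_range_succ]
    have e1 : ¬ Even (2 * k + 2 + 1) := by
      rw [Nat.not_even_iff_odd]; exact ⟨k + 1, by ring⟩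
    have e2 : Even (2 * k + 2 + 1 + 1) := ⟨k + 2, by ring⟩
    rw [if_neg e1, if_pos e2]
    have hp := ltbpsu_pair q (2 * k + 2 + 1 + 1) hq
    have e3 : (k + 1 + 1) * (2 * (k + 1) + 5)
        = (k + 1) * (2 * k + 5) + (2 * (2 * k + 2 + 1 + 1) + 1) := by ring
    rw [e3, pow_add q ((k + 1) * (2 * k + 5)) (2 * (2 * k + 2 + 1 + 1) + 1), mul_assoc]
    exact Nat.mul_lt_mul'' ih hp

theorem ltbpsu_odd (q : ℕ) (hq : 2 ≤ q) (k : ℕ) :
    ∏ i ∈ Finset.range (2 * k + 1),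
        (if Even (i + 1) then q ^ (i + 1 + 1) + 1 else q ^ (i + 1 + 1) - 1)
      < q ^ ((2 * k + 1) * (k + 2)) := by
  have hq1 : 1 ≤ q := by omega
  cases k with
  | zero =>
    have e : Finset.range (2 * 0 + 1) = Finset.range (0 + 1) := rfl
    rw [e, Finset.prod_range_succ, Finset.prod_range_zero, one_mul]
    have e1 : ¬ Even (0 + 1) := by decide
    rw [if_neg e1]
    show q ^ 2 - 1 < q ^ 2
    have : 1 ≤ q ^ 2 := Nat.one_le_pow _ _ hq1
    omega
  | succ k =>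
    have e : 2 * (k + 1) + 1 = (2 * k + 2) + 1 := by ring
    rw [e, Finset.prod_range_succ]
    have e1 : ¬ Even (2 * k + 2 + 1) := by
      rw [Nat.not_even_iff_odd]; exact ⟨k + 1, by ring⟩
    rw [if_neg e1]
    have h1 := ltbpsu_even q hq k
    have h2 : q ^ (2 * k + 2 + 1 + 1) - 1 < q ^ (2 * k + 2 + 1 + 1) := by
      have : 1 ≤ q ^ (2 * k + 2 + 1 + 1) := Nat.one_le_pow _ _ hq1
      omega
    have e3 : (2 * k + 2 + 1) * (k + 1 + 2) = (k + 1) * (2 * k + 5) + (2 * k + 2 + 1 + 1) := by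
      ring
    rw [e3, pow_add q ((k + 1) * (2 * k + 5)) (2 * k + 2 + 1 + 1)]
    exact Nat.mul_lt_mul'' h1 h2

theorem psu_stmt : PsuStmt := by
  intro p hp F _ _ _ n q hF hn hcard
  have hFc : 1 < Fintype.card F := Fintype.one_lt_card
  have hq2 : 2 ≤ q := by
    by_contra h
    have h1 : q ≤ 1 := by omega
    have h2 : q ^ 2 ≤ 1 := by interval_cases q <;> simp
    omega
  obtain ⟨f, -, hf⟩ := FiniteField.card F p
  have hdvd : q ∣ p ^ (f : ℕ) := by
    rw [← hf, hF]; exact dvd_pow_self q (by norm_num)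
  obtain ⟨j, -, hj⟩ := (Nat.dvd_prime_pow hp).mp hdvd
  have hj1 : 1 ≤ j := by
    by_contra h
    have h0 : j = 0 := by omega
    rw [h0, pow_zero] at hj
    omega
  have hpq : p ∣ q := by rw [hj]; exact dvd_pow_self p (by omega)
  have hd : ¬ p ∣ Nat.gcd n (q + 1) := by
    intro h
    have h1 : p ∣ q + 1 := dvd_trans h (Nat.gcd_dvd_right _ _)
    have h2 : p ∣ 1 := (Nat.dvd_add_right hpq).mp h1
    exact hp.one_lt.ne' (Nat.dvd_one.mp h2)
  obtain ⟨m, rfl⟩ : ∃ m, n = m + 1 := ⟨n - 1, by omega⟩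
  rw [Finset.prod_range_succ'] at hcard
  have e0 : (if Even 0 then q ^ (0 + 1) + 1 else q ^ (0 + 1) - 1) = q + 1 := by
    rw [if_pos (by decide : Even 0), zero_add, pow_one]
  rw [e0] at hcard
  have heq : Nat.gcd (m + 1) (q + 1) * Nat.card (PSU (m + 1) F q) =
      q ^ ((m + 1) * (m + 1 - 1) / 2) * ∏ i ∈ Finset.range m,
        (if Even (i + 1) then q ^ (i + 1 + 1) + 1 else q ^ (i + 1 + 1) - 1) := by
    have h1 : (q + 1) * (Nat.gcd (m + 1) (q + 1) * Nat.card (PSU (m + 1) F q)) =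
        (q + 1) * (q ^ ((m + 1) * (m + 1 - 1) / 2) * ∏ i ∈ Finset.range m,
          (if Even (i + 1) then q ^ (i + 1 + 1) + 1 else q ^ (i + 1 + 1) - 1)) := by
      linarith
    exact Nat.eq_of_mul_eq_mul_left (by omega) h1
  subst hj
  rcases Nat.even_or_odd' m with ⟨k, hk | hk⟩
  · obtain ⟨k', rfl⟩ : ∃ k', k = k' + 1 := ⟨k - 1, by omega⟩
    subst hk
    have hM : ∏ i ∈ Finset.range (2 * (k' + 1)),
        (if Even (i + 1) then (p ^ j) ^ (i + 1 + 1) + 1 else (p ^ j) ^ (i + 1 + 1) - 1)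
        < (p ^ j) ^ ((k' + 1) * (2 * k' + 5)) := ltbpsu_even (p ^ j) hq2 k'
    have eN : (2 * (k' + 1) + 1) * (2 * (k' + 1) + 1 - 1) / 2 = (2 * k' + 3) * (k' + 1) := by
      have h3 : (2 * (k' + 1) + 1) * (2 * (k' + 1) + 1 - 1) = 2 * ((2 * k' + 3) * (k' + 1)) := by
        have h4 : 2 * (k' + 1) + 1 - 1 = 2 * (k' + 1) := by omega
        rw [h4]; ring
      rw [h3, Nat.mul_div_cancel_left _ (by norm_num : 0 < 2)]
    rw [eN] at heq
    exact goal_of_q_mul_bounds p hp j ((2 * k' + 3) * (k' + 1)) ((k' + 1) * (2 * k' + 5)) _ _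
      hd heq hM (by nlinarith [Nat.zero_le (k' * k'), Nat.zero_le k'])
  · have hk1 : 1 ≤ k := by omega
    subst hk
    have hM : ∏ i ∈ Finset.range (2 * k + 1),
        (if Even (i + 1) then (p ^ j) ^ (i + 1 + 1) + 1 else (p ^ j) ^ (i + 1 + 1) - 1)
        < (p ^ j) ^ ((2 * k + 1) * (k + 2)) := ltbpsu_odd (p ^ j) hq2 k
    have eN : (2 * k + 1 + 1) * (2 * k + 1 + 1 - 1) / 2 = (k + 1) * (2 * k + 1) := by
      have h3 : (2 * k + 1 + 1) * (2 * k + 1 + 1 - 1) = 2 * ((k + 1) * (2 * k + 1)) := by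
        have h4 : 2 * k + 1 + 1 - 1 = 2 * k + 1 := by omega
        rw [h4]; ring
      rw [h3, Nat.mul_div_cancel_left _ (by norm_num : 0 < 2)]
    rw [eN] at heq
    exact goal_of_q_mul_bounds p hp j ((k + 1) * (2 * k + 1)) ((2 * k + 1) * (k + 2)) _ _
      hd heq hM (by nlinarith [Nat.mul_le_mul hk1 hk1, Nat.zero_le k])

end Cfsg.Agent.Lib.Lead.LTB
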