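import Mathlib

/-!
# S5981 piece ORDPAR (helper96's project Oq)

`ZMod r` facts for `i = orderOf (q : ZMod r)` even: no odd `j` with `r ∣ q ^ j - 1`;
`r ∣ q ^ m + 1` gives `i ∣ 2 m` with `2 m / i` odd; `r ∣ q ^ m - 1` gives `i ∣ 2 m` with
`2 m / i` even.  (Proved by helper20; the hypothesis `hrq` is not needed.)
-/

set_option autoImplicit false

namespace Cfsg.Agent.Lib.Helper20.Oq

theorem ord_parity (q r : ℕ) [Fact r.Prime] (hr2 : r ≠ 2) (hq : 2 ≤ q) (hrq : ¬ r ∣ q)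
    (hi : Even (orderOf (q : ZMod r))) :
    (∀ j, Odd j → ¬ r ∣ q ^ j - 1) ∧
    (∀ m, r ∣ q ^ m + 1 →
      orderOf (q : ZMod r) ∣ 2 * m ∧ Odd (2 * m / orderOf (q : ZMod r))) ∧
    (∀ m, r ∣ q ^ m - 1 →
      orderOf (q : ZMod r) ∣ 2 * m ∧ Even (2 * m / orderOf (q : ZMod r))) := by
  have hr : r.Prime := Fact.out
  have hpos : ∀ j : ℕ, 1 ≤ q ^ j := fun j => Nat.one_le_pow _ _ (by omega)
  have hone : ∀ j : ℕ, r ∣ q ^ j - 1 → (q : ZMod r) ^ j = 1 := by
    intro j hj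
    have h1 := (ZMod.natCast_eq_zero_iff (q ^ j - 1) r).2 hj
    rw [Nat.cast_sub (hpos j), Nat.cast_pow, Nat.cast_one, sub_eq_zero] at h1
    exact h1
  have hneg : ∀ m : ℕ, r ∣ q ^ m + 1 → (q : ZMod r) ^ m = -1 := by
    intro m hm
    have h1 := (ZMod.natCast_eq_zero_iff (q ^ m + 1) r).2 hm
    rw [Nat.cast_add, Nat.cast_pow, Nat.cast_one] at h1
    exact eq_neg_of_add_eq_zero_left h1
  have h12 : (1 : ZMod r) ≠ -1 := by
    intro h
    have h2 : ((2 : ℕ) : ZMod r) = 0 := by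
      have h3 : (1 : ZMod r) + 1 = 0 := by
        nth_rewrite 1 [h]
        exact neg_add_cancel 1
      rw [← h3]
      push_cast
      norm_num
    have h3 := (ZMod.natCast_eq_zero_iff 2 r).1 h2
    exact hr2 ((Nat.prime_dvd_prime_iff_eq hr Nat.prime_two).1 h3)
  refine ⟨?_, ?_, ?_⟩
  · intro j hj hdvd
    have h1 := orderOf_dvd_of_pow_eq_one (hone j hdvd)
    have h2 : 2 ∣ j := hi.two_dvd.trans h1
    rcases hj with ⟨t, rfl⟩
    omega
  · intro m hm
    have h1 := hneg m hm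
    have h2 : (q : ZMod r) ^ (2 * m) = 1 := by
      rw [mul_comm, pow_mul, h1]
      norm_num
    have h3 := orderOf_dvd_of_pow_eq_one h2
    refine ⟨h3, ?_⟩
    rw [← Nat.not_even_iff_odd]
    intro hev
    obtain ⟨t, ht⟩ := hev
    have h4 : 2 * m = orderOf (q : ZMod r) * (2 * m / orderOf (q : ZMod r)) :=
      (Nat.mul_div_cancel' h3).symm
    rw [ht] at h4
    have h5 : m = orderOf (q : ZMod r) * t := by
      have h6 : 2 * m = 2 * (orderOf (q : ZMod r) * t) := by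
        rw [h4]
        ring
      omega
    have h6 : (q : ZMod r) ^ m = 1 := by
      rw [h5, pow_mul, pow_orderOf_eq_one, one_pow]
    exact h12 (h6.symm.trans h1)
  · intro m hm
    have h1 := orderOf_dvd_of_pow_eq_one (hone m hm)
    refine ⟨Dvd.dvd.mul_left h1 2, ?_⟩
    obtain ⟨t, ht⟩ := h1
    rcases Nat.eq_zero_or_pos (orderOf (q : ZMod r)) with h0 | h0
    · rw [h0, Nat.div_zero]
      exact ⟨0, rfl⟩
    · have h7 : 2 * m / orderOf (q : ZMod r) = 2 * t := by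
        rw [ht, show 2 * (orderOf (q : ZMod r) * t) = orderOf (q : ZMod r) * (2 * t) by ring,
          Nat.mul_div_cancel_left _ h0]
      rw [h7]
      exact even_two_mul t

end Cfsg.Agent.Lib.Helper20.Oq
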