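import Mathlib

/-!
# Fourier bookkeeping on `ZMod p` for a character of degree `p - 1` (helper20)

`pm1_comb` is the combinatorial core: multiplicities `n j` on `ZMod p` with sum `p - 1`,
`∑ (n j - 1)^2 ≤ e`, invariant under a set of `e ≥ 2` nonzero multipliers, are `0` at `0` and `1`
elsewhere.  `pm1_fourier` derives the hypotheses from a trigonometric sum.
-/

set_option autoImplicit false

namespace Cfsg.Agent.Lib.Helper20

open Finset

theorem pm1_comb (p e : ℕ) [hp : Fact p.Prime] (he : 2 ≤ e) (n : ZMod p → ℕ)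
    (hsum : ∑ j, n j = p - 1)
    (hsq : (∑ j : ZMod p, ((n j : ℤ) - 1) ^ 2 : ℤ) ≤ (e : ℤ))
    (C : Finset (ZMod p)) (hCe : e ≤ C.card)
    (hinv : ∀ c ∈ C, ∀ j, n (c * j) = n j) :
    n 0 = 0 ∧ ∀ j, j ≠ 0 → n j = 1 := by
  classical
  have hcard : Fintype.card (ZMod p) = p := ZMod.card p
  have hp2 : 2 ≤ p := hp.out.two_le
  -- step 1
  have h1 : ∀ j : ZMod p, j ≠ 0 → n j ≠ 0 := by
    intro j0 hj0 hn0
    obtain ⟨Z, hZ⟩ : ∃ Z : Finset (ZMod p), Z = C.image (fun c => c * j0) := ⟨_, rfl⟩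
    have hZcard : Z.card = C.card := by
      rw [hZ]
      apply Finset.card_image_of_injective
      intro a b hab
      exact mul_right_cancel₀ hj0 hab
    have hZn : ∀ j ∈ Z, n j = 0 := by
      intro j hj
      rw [hZ, Finset.mem_image] at hj
      obtain ⟨c, hc, rfl⟩ := hj
      rw [hinv c hc, hn0]
    have hsplit : (∑ j : ZMod p, ((n j : ℤ) - 1) ^ 2 : ℤ) =
        (∑ j ∈ Z, ((n j : ℤ) - 1) ^ 2 : ℤ) + (∑ j ∈ Zᶜ, ((n j : ℤ) - 1) ^ 2 : ℤ) := by
      rw [Finset.sum_add_sum_compl]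
    have hZsum : (∑ j ∈ Z, ((n j : ℤ) - 1) ^ 2 : ℤ) = (Z.card : ℤ) := by
      have : ∀ j ∈ Z, ((n j : ℤ) - 1) ^ 2 = (1 : ℤ) := by
        intro j hj
        rw [hZn j hj]; norm_num
      rw [Finset.sum_congr rfl this]
      simp
    have hnonneg : (0 : ℤ) ≤ (∑ j ∈ Zᶜ, ((n j : ℤ) - 1) ^ 2 : ℤ) :=
      Finset.sum_nonneg (fun j _ => sq_nonneg _)
    have hle : (Z.card : ℤ) + (∑ j ∈ Zᶜ, ((n j : ℤ) - 1) ^ 2 : ℤ) ≤ (e : ℤ) := by
      rw [← hZsum, ← hsplit]; exact hsq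
    have h2 : (e : ℤ) ≤ Z.card := by rw [hZcard]; exact_mod_cast hCe
    have hR : (∑ j ∈ Zᶜ, ((n j : ℤ) - 1) ^ 2 : ℤ) = 0 := by linarith
    have hZe : Z.card = e := by
      rw [hR] at hle
      have : (Z.card : ℤ) = e := by linarith
      exact_mod_cast this
    have hone : ∀ j ∈ Zᶜ, n j = 1 := by
      intro j hj
      have h3 := (Finset.sum_eq_zero_iff_of_nonneg (fun j _ => sq_nonneg ((n j : ℤ) - 1))).1 hR j hj
      have h4 : (n j : ℤ) - 1 = 0 := by
        rcases pow_eq_zero_iff (two_ne_zero) |>.1 h3 with h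
        exact h
      have : (n j : ℤ) = 1 := by linarith
      exact_mod_cast this
    have hs2 : ∑ j, n j = p - e := by
      rw [← Finset.sum_add_sum_compl Z, Finset.sum_eq_zero hZn, zero_add,
        Finset.sum_congr rfl hone]
      simp [Finset.card_compl, hcard, hZe]
    rw [hsum] at hs2
    have : Z.card ≤ p := by
      have h := Finset.card_le_univ Z
      rw [hcard] at h
      exact h
    omega
  -- step 2
  have h2 : ∀ j : ZMod p, j ≠ 0 → 1 ≤ n j := fun j hj => Nat.one_le_iff_ne_zero.2 (h1 j hj)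
  have hsplit : ∑ j, n j = n 0 + ∑ j ∈ (Finset.univ.erase (0 : ZMod p)), n j := by
    rw [Finset.add_sum_erase _ _ (Finset.mem_univ _)]
  have hcardE : (Finset.univ.erase (0 : ZMod p)).card = p - 1 := by
    rw [Finset.card_erase_of_mem (Finset.mem_univ _), Finset.card_univ, hcard]
  have hge : (p - 1) ≤ ∑ j ∈ (Finset.univ.erase (0 : ZMod p)), n j := by
    calc p - 1 = ∑ _j ∈ (Finset.univ.erase (0 : ZMod p)), 1 := by simp [hcardE]
      _ ≤ ∑ j ∈ (Finset.univ.erase (0 : ZMod p)), n j :=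
        Finset.sum_le_sum (fun j hj => h2 j (Finset.ne_of_mem_erase hj))
  have h0 : n 0 = 0 := by omega
  refine ⟨h0, ?_⟩
  have heq : ∑ j ∈ (Finset.univ.erase (0 : ZMod p)), n j =
      ∑ _j ∈ (Finset.univ.erase (0 : ZMod p)), 1 := by
    simp only [Finset.sum_const, smul_eq_mul, mul_one, hcardE]
    omega
  intro j hj
  by_contra hne
  have hlt : 1 < n j := lt_of_le_of_ne (h2 j hj) (Ne.symm hne)
  have : ∑ _j ∈ (Finset.univ.erase (0 : ZMod p)), 1 <
      ∑ j ∈ (Finset.univ.erase (0 : ZMod p)), n j :=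
    Finset.sum_lt_sum (fun j hj => h2 j (Finset.ne_of_mem_erase hj))
      ⟨j, Finset.mem_erase.2 ⟨hj, Finset.mem_univ _⟩, hlt⟩
  omega

theorem pm1_orth (p : ℕ) [hp : Fact p.Prime] (b : ZMod p) :
    ∑ k : ZMod p, (ZMod.stdAddChar (N := p)) (k * b) = if b = 0 then (p : ℂ) else 0 := by
  classical
  have := AddChar.sum_mulShift b (ZMod.isPrimitive_stdAddChar p)
  rw [this, ZMod.card p]
  split_ifs <;> simp

open scoped ComplexConjugate in
theorem pm1_fourier (p e : ℕ) [hp : Fact p.Prime] (he : 2 ≤ e) {ι : Type*} [Fintype ι]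
    (a : ι → ZMod p) (hι : Fintype.card ι + 1 = p)
    (F : ZMod p → ℂ) (hF : ∀ k, F k = ∑ i, (ZMod.stdAddChar (N := p)) (a i * k))
    (hTI : ∑ k ∈ (Finset.univ.erase (0 : ZMod p)), ‖F k‖ ^ 2 < (p : ℝ) * e)
    (C : Finset (ZMod p)) (hC0 : (0 : ZMod p) ∉ C) (hCe : e ≤ C.card)
    (hinv : ∀ c ∈ C, ∀ k, F (c * k) = F k) :
    Function.Injective a ∧ ∀ i, a i ≠ 0 := by
  classical
  obtain ⟨ψ, hψ⟩ : ∃ ψ : AddChar (ZMod p) ℂ, ψ = ZMod.stdAddChar (N := p) := ⟨_, rfl⟩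
  rw [← hψ] at hF
  have hp0 : (p : ℂ) ≠ 0 := Nat.cast_ne_zero.2 hp.out.ne_zero
  have hp2 : 2 ≤ p := hp.out.two_le
  obtain ⟨n, hn⟩ : ∃ n : ZMod p → ℕ, n = fun j => (Finset.univ.filter (fun i => a i = j)).card :=
    ⟨_, rfl⟩
  have hsum : ∑ j, n j = p - 1 := by
    have h := Finset.card_eq_sum_card_fiberwise (f := a) (s := Finset.univ) (t := Finset.univ)
      (fun x _ => Finset.mem_univ _)
    rw [Finset.card_univ] at h
    rw [hn]
    simp only
    rw [← h]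
    omega
  -- inversion
  have hinvF : ∀ j, ∑ k, F k * ψ (-(j * k)) = (p : ℂ) * n j := by
    intro j
    simp_rw [hF, Finset.sum_mul]
    rw [Finset.sum_comm]
    have h1 : ∀ i, ∑ k, ψ (a i * k) * ψ (-(j * k)) = if a i = j then (p : ℂ) else 0 := by
      intro i
      have h2 : ∀ k, ψ (a i * k) * ψ (-(j * k)) = ψ (k * (a i - j)) := by
        intro k
        rw [← AddChar.map_add_eq_mul]
        congr 1; ring
      simp_rw [h2]
      rw [hψ, pm1_orth]
      simp [sub_eq_zero]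
    simp_rw [h1]
    rw [Finset.sum_ite, Finset.sum_const_zero, add_zero, Finset.sum_const, nsmul_eq_mul, mul_comm,
      hn]
  -- invariance of the multiplicities
  have hninv : ∀ c ∈ C, ∀ j, n (c * j) = n j := by
    intro c hc j
    have hc0 : c ≠ 0 := fun h => hC0 (h ▸ hc)
    have h1 : (p : ℂ) * n (c * j) = (p : ℂ) * n j := by
      rw [← hinvF, ← hinvF]
      have h2 : ∀ k, F k * ψ (-(c * j * k)) = (fun l => F l * ψ (-(j * l))) (c * k) := by
        intro k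
        simp only
        rw [hinv c hc k]
        congr 2; ring
      simp_rw [h2]
      exact Fintype.sum_equiv (Equiv.mulLeft₀ c hc0) _ _ (fun k => rfl)
    exact_mod_cast mul_left_cancel₀ hp0 h1
  -- Parseval
  have hconj : ∀ k, conj (F k) = ∑ i, ψ (-(a i * k)) := by
    intro k
    rw [hF, map_sum]
    refine Finset.sum_congr rfl (fun i _ => ?_)
    rw [AddChar.map_neg_eq_conj]
  have hfib : ∑ i, n (a i) = ∑ j, n j * n j := by
    rw [← Finset.sum_fiberwise (Finset.univ) a (fun i => n (a i))]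
    refine Finset.sum_congr rfl (fun j _ => ?_)
    have : ∀ i ∈ Finset.univ.filter (fun i => a i = j), n (a i) = n j := by
      intro i hi
      rw [(Finset.mem_filter.1 hi).2]
    rw [Finset.sum_congr rfl this, Finset.sum_const, smul_eq_mul]
    congr 1
    rw [hn]
  have hpars : ((∑ k, ‖F k‖ ^ 2 : ℝ) : ℂ) = (p : ℂ) * ((∑ j, n j * n j : ℕ) : ℂ) := by
    push_cast
    have h1 : ∀ k, ((‖F k‖ : ℂ)) ^ 2 = F k * conj (F k) := by
      intro k
      rw [Complex.mul_conj, Complex.normSq_eq_norm_sq]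
      push_cast; rfl
    simp_rw [h1, hconj, Finset.mul_sum]
    rw [Finset.sum_comm]
    simp_rw [hinvF]
    rw [← Finset.mul_sum, ← Finset.mul_sum]
    congr 1
    have := congrArg (fun m : ℕ => (m : ℂ)) hfib
    simpa using this
  have hF0 : F 0 = ((p : ℂ) - 1) := by
    rw [hF]
    simp only [mul_zero, AddChar.map_zero_eq_one, Finset.sum_const, Finset.card_univ, nsmul_eq_mul,
      mul_one]
    rw [← hι]; push_cast; ring
  have hparsR : (∑ k, ‖F k‖ ^ 2 : ℝ) = (p : ℝ) * ((∑ j, n j * n j : ℕ) : ℝ) := by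
    exact_mod_cast hpars
  have hsplit : (∑ k, ‖F k‖ ^ 2 : ℝ) =
      ‖F 0‖ ^ 2 + ∑ k ∈ (Finset.univ.erase (0 : ZMod p)), ‖F k‖ ^ 2 := by
    exact (Finset.add_sum_erase Finset.univ (fun k => ‖F k‖ ^ 2) (Finset.mem_univ 0)).symm
  have hF0n : ‖F 0‖ ^ 2 = ((p : ℝ) - 1) ^ 2 := by
    rw [hF0]
    have : ((p : ℂ) - 1) = (((p : ℝ) - 1 : ℝ) : ℂ) := by push_cast; ring
    rw [this, Complex.norm_real, Real.norm_eq_abs, sq_abs]
  obtain ⟨Q, hQ⟩ : ∃ Q : ℕ, Q = ∑ j, n j * n j := ⟨_, rfl⟩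
  rw [← hQ] at hparsR
  have hlt : (p : ℝ) * Q < ((p : ℝ) - 1) ^ 2 + (p : ℝ) * e := by
    rw [← hparsR, hsplit, hF0n]
    linarith
  have hltZ : (p : ℤ) * Q < ((p : ℤ) - 1) ^ 2 + (p : ℤ) * e := by exact_mod_cast hlt
  have hX : (∑ j : ZMod p, ((n j : ℤ) - 1) ^ 2 : ℤ) = (Q : ℤ) - 2 * ((p : ℤ) - 1) + p := by
    have h1 : ∀ j : ZMod p, ((n j : ℤ) - 1) ^ 2 = ((n j * n j : ℕ) : ℤ) - 2 * (n j : ℤ) + 1 := by
      intro j; push_cast; ring
    simp_rw [h1]
    rw [Finset.sum_add_distrib, Finset.sum_sub_distrib, ← Finset.mul_sum, ← Nat.cast_sum,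
      ← Nat.cast_sum, ← hQ, hsum]
    simp only [Finset.sum_const, Finset.card_univ, ZMod.card, nsmul_eq_mul, mul_one]
    have : ((p - 1 : ℕ) : ℤ) = (p : ℤ) - 1 := by
      rw [Nat.cast_sub (by omega)]; simp
    rw [this]
  have hsq : (∑ j : ZMod p, ((n j : ℤ) - 1) ^ 2 : ℤ) ≤ (e : ℤ) := by
    rw [hX]
    by_contra hcon
    push Not at hcon
    have hpZ : (2 : ℤ) ≤ p := by exact_mod_cast hp2
    nlinarith
  obtain ⟨hn0, hn1⟩ := pm1_comb p e he n hsum hsq C hCe hninv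
  have ha0 : ∀ i, a i ≠ 0 := by
    intro i hi
    have : 0 < n 0 := by
      rw [hn]
      exact Finset.card_pos.2 ⟨i, Finset.mem_filter.2 ⟨Finset.mem_univ _, hi⟩⟩
    omega
  refine ⟨?_, ha0⟩
  intro i i' hii
  by_contra hne
  have h1 := hn1 (a i) (ha0 i)
  have h2 : 1 < n (a i) := by
    rw [hn]
    exact Finset.one_lt_card.2 ⟨i, Finset.mem_filter.2 ⟨Finset.mem_univ _, rfl⟩, i',
      Finset.mem_filter.2 ⟨Finset.mem_univ _, hii.symm⟩, hne⟩
  omega

end Cfsg.Agent.Lib.Helper20
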