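import Mathlib
import Cfsg.Agent.Lib.Helper79.SelfCent2

/-!
# The trivial-intersection inequality for a self-centralizing subgroup of prime order (helper20)

If `C_G(x) = ⟨x⟩` with `x` of prime order, the conjugates of `⟨x⟩ \ 1` are pairwise disjoint, so for
a nonnegative class function `f` with `f 1 > 0`:
`|G| * ∑_{z ∈ ⟨x⟩ \ 1} f z < |N_G(⟨x⟩)| * ∑_g f g`.
-/

set_option autoImplicit false

namespace Cfsg.Agent.Lib.Helper20

open Subgroup

theorem pm1_ti {G : Type*} [Group G] [Fintype G] [DecidableEq G] {p : ℕ} (hp : p.Prime) {x : G}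
    (hx : orderOf x = p)
    (f : G → ℝ) (hf : ∀ g h : G, f (h * g * h⁻¹) = f g) (hf0 : ∀ g, 0 ≤ f g) (hf1 : 0 < f 1)
    (A : Finset G) (hA : ∀ z, z ∈ A ↔ (z ∈ zpowers x ∧ z ≠ 1)) :
    (Fintype.card G : ℝ) * ∑ z ∈ A, f z
      < (Nat.card (normalizer (zpowers x : Set G)) : ℝ) * ∑ g, f g := by
  classical
  obtain ⟨N, hN⟩ : ∃ N : Subgroup G, N = normalizer (zpowers x : Set G) := ⟨_, rfl⟩
  rw [← hN]
  obtain ⟨T, hT⟩ : ∃ T : G → ℕ, T = fun g => (Finset.univ.filter (fun h : G => h⁻¹ * g * h ∈ A)).card :=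
    ⟨_, rfl⟩
  -- double counting
  have hdc : ∑ g, (T g : ℝ) * f g = (Fintype.card G : ℝ) * ∑ z ∈ A, f z := by
    have h1 : ∀ g, (T g : ℝ) * f g = ∑ h : G, if h⁻¹ * g * h ∈ A then f g else 0 := by
      intro g
      rw [hT]
      simp only
      rw [Finset.sum_ite, Finset.sum_const_zero, add_zero, Finset.sum_const, nsmul_eq_mul]
    simp_rw [h1]
    rw [Finset.sum_comm]
    have h2 : ∀ h : G, (∑ g : G, if h⁻¹ * g * h ∈ A then f g else 0) = ∑ z ∈ A, f z := by
      intro h
      have h3 : ∀ g : G, (if h⁻¹ * g * h ∈ A then f g else 0) =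
          (fun z => if z ∈ A then f z else 0) ((MulAut.conj h⁻¹).toEquiv g) := by
        intro g
        simp only [MulEquiv.toEquiv_eq_coe, EquivLike.coe_coe, MulAut.conj_apply, inv_inv]
        have := hf g h⁻¹
        rw [inv_inv] at this
        rw [this]
      simp_rw [h3]
      rw [Fintype.sum_equiv (MulAut.conj h⁻¹).toEquiv _ (fun z => if z ∈ A then f z else 0)
        (fun g => rfl)]
      rw [Finset.sum_ite_mem, Finset.univ_inter]
    simp_rw [h2]
    rw [Finset.sum_const, Finset.card_univ, nsmul_eq_mul]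
  -- the bound on T
  have hT1 : T 1 = 0 := by
    rw [hT]
    simp only [mul_one, inv_mul_cancel]
    rw [Finset.card_eq_zero, Finset.filter_eq_empty_iff]
    intro h _ h1
    exact ((hA 1).1 h1).2 rfl
  have hcardN : (Finset.univ.filter (fun g : G => g ∈ N)).card = Nat.card N := by
    rw [Nat.card_eq_fintype_card, Fintype.card_subtype]
  have hTle : ∀ g, T g ≤ Nat.card N := by
    intro g
    rw [hT]
    simp only
    by_cases hne : (Finset.univ.filter (fun h : G => h⁻¹ * g * h ∈ A)).Nonempty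
    · obtain ⟨h0, hh0⟩ := hne
      rw [Finset.mem_filter] at hh0
      have hy := (hA _).1 hh0.2
      rw [← hcardN]
      apply Finset.card_le_card_of_injOn (fun h => h0⁻¹ * h)
      · intro h hh
        rw [Finset.mem_coe, Finset.mem_filter] at hh
        rw [Finset.mem_coe, Finset.mem_filter]
        refine ⟨Finset.mem_univ _, ?_⟩
        have hu : h⁻¹ * h0 ∈ N := by
          rw [hN]
          apply Cfsg.Agent.Lib.Helper79.mem_normalizer_of_conj_mem hp hx hy.1 hy.2
          have : h⁻¹ * h0 * (h0⁻¹ * g * h0) * (h⁻¹ * h0)⁻¹ = h⁻¹ * g * h := by group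
          rw [this]
          exact ((hA _).1 hh.2).1
        have : h0⁻¹ * h = (h⁻¹ * h0)⁻¹ := by group
        show h0⁻¹ * h ∈ N
        rw [this]
        exact N.inv_mem hu
      · intro a _ b _ hab
        exact mul_left_cancel hab
    · rw [Finset.not_nonempty_iff_eq_empty] at hne
      rw [hne, Finset.card_empty]
      exact Nat.zero_le _
  have hNpos : (0 : ℝ) < Nat.card N := by exact_mod_cast Nat.card_pos
  calc (Fintype.card G : ℝ) * ∑ z ∈ A, f z = ∑ g, (T g : ℝ) * f g := hdc.symm
    _ = ∑ g ∈ Finset.univ.erase (1 : G), (T g : ℝ) * f g := by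
        rw [← Finset.add_sum_erase Finset.univ (fun g => (T g : ℝ) * f g) (Finset.mem_univ 1), hT1]
        simp
    _ ≤ ∑ g ∈ Finset.univ.erase (1 : G), (Nat.card N : ℝ) * f g := by
        apply Finset.sum_le_sum
        intro g _
        apply mul_le_mul_of_nonneg_right _ (hf0 g)
        exact_mod_cast hTle g
    _ = (Nat.card N : ℝ) * ∑ g ∈ Finset.univ.erase (1 : G), f g := by rw [Finset.mul_sum]
    _ < (Nat.card N : ℝ) * ∑ g, f g := by
        apply mul_lt_mul_of_pos_left _ hNpos
        rw [← Finset.add_sum_erase Finset.univ f (Finset.mem_univ 1)]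
        linarith

end Cfsg.Agent.Lib.Helper20
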