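import Mathlib
import Cfsg.Agent.Lib.Helper79.SelfCent2
import Cfsg.Agent.Lib.Helper4.Eigen
import Cfsg.Agent.Lib.Helper4.CharCore
import Cfsg.Agent.Lib.Helper20.PM1a
import Cfsg.Agent.Lib.Helper20.PM1b
import Cfsg.Agent.Lib.Helper20.DetChar

/-!
# Irreducible representations of degree `p - 1` restricted to a self-centralizing `⟨x⟩` (helper20)

`C_G(x) = ⟨x⟩`, `x` of prime order `p`, `[N_G(⟨x⟩) : ⟨x⟩] ≥ 2`, `ρ` irreducible of degree `p - 1`:
the eigenvalues of `ρ x` are the `p - 1` nontrivial `p`-th roots of unity, each once (`pm1_eigen`),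
and the character of `ρ` vanishes on `N_G(⟨x⟩) \ ⟨x⟩` (`pm1_vanish`).
-/

set_option autoImplicit false

namespace Cfsg.Agent.Lib.Helper20

open Subgroup Cfsg

section

variable {G : Type*} [Group G] {p : ℕ} {x : G}

theorem pm1_pow_val_mul [hp : Fact p.Prime] (hx : orderOf x = p) (c k : ZMod p) :
    x ^ (c * k).val = (x ^ c.val) ^ k.val := by
  rw [← pow_mul, pow_eq_pow_iff_modEq, hx, ZMod.val_mul]
  exact Nat.mod_modEq _ _

theorem pm1_exists_val [Finite G] [hp : Fact p.Prime] (hx : orderOf x = p) {z : G}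
    (hz : z ∈ zpowers x) : ∃ k : ZMod p, x ^ k.val = z := by
  rw [← mem_powers_iff_mem_zpowers, Submonoid.mem_powers_iff] at hz
  obtain ⟨m, rfl⟩ := hz
  refine ⟨(m : ZMod p), ?_⟩
  rw [pow_eq_pow_iff_modEq, hx, ZMod.val_natCast]
  exact Nat.mod_modEq _ _

theorem pm1_val_ne_one [hp : Fact p.Prime] (hx : orderOf x = p) {k : ZMod p} (hk : k ≠ 0) :
    x ^ k.val ≠ 1 := by
  intro h
  rw [← pow_zero x, pow_eq_pow_iff_modEq, hx] at h
  apply hk
  have h2 : k.val % p = 0 := by simpa [Nat.ModEq] using h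
  rw [Nat.mod_eq_of_lt (ZMod.val_lt k)] at h2
  exact (ZMod.val_eq_zero k).1 h2

theorem pm1_val_inj [hp : Fact p.Prime] (hx : orderOf x = p) {k l : ZMod p}
    (h : x ^ k.val = x ^ l.val) : k = l := by
  rw [pow_eq_pow_iff_modEq, hx] at h
  apply ZMod.val_injective p
  have := h
  unfold Nat.ModEq at this
  rwa [Nat.mod_eq_of_lt (ZMod.val_lt k), Nat.mod_eq_of_lt (ZMod.val_lt l)] at this

theorem pm1_card_normalizer (hx : orderOf x = p) :
    Nat.card (normalizer (zpowers x : Set G)) =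
      p * (zpowers x).relIndex (normalizer (zpowers x : Set G)) := by
  have h1 := ((zpowers x).subgroupOf (normalizer (zpowers x : Set G))).card_mul_index
  have h2 : Nat.card ((zpowers x).subgroupOf (normalizer (zpowers x : Set G))) = p := by
    rw [Nat.card_congr (Subgroup.subgroupOfEquivOfLe (Subgroup.le_normalizer)).toEquiv,
      Nat.card_zpowers, hx]
  rw [h2] at h1
  rw [← h1]
  rfl

end

section

variable {G : Type*} [Group G] [Fintype G] {p : ℕ} {x : G}
variable {V : Type*} [AddCommGroup V] [Module ℂ V] [FiniteDimensional ℂ V]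

open scoped ComplexConjugate

theorem pm1_norm_sum (ρ : Representation ℂ G V) [ρ.IsIrreducible] :
    ∑ g : G, ‖ρ.character g‖ ^ 2 = (Fintype.card G : ℝ) := by
  classical
  have h1 := Helper4.classInner_char_irr ρ ρ
  rw [if_pos ⟨Representation.Equiv.refl ρ⟩, classInner] at h1
  have hG : (Nat.card G : ℂ) ≠ 0 := Helper4.card_ne_zero_complex
  have h2 : ∑ g : G, ρ.character g * conj (ρ.character g) = (Nat.card G : ℂ) := by
    field_simp at h1
    exact h1
  have h3 : ((∑ g : G, ‖ρ.character g‖ ^ 2 : ℝ) : ℂ) = ((Fintype.card G : ℝ) : ℂ) := by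
    push_cast
    rw [← Nat.card_eq_fintype_card, ← h2]
    refine Finset.sum_congr rfl (fun g _ => ?_)
    rw [Complex.mul_conj, Complex.normSq_eq_norm_sq]
    push_cast; rfl
  exact_mod_cast h3

theorem pm1_eigen [hp : Fact p.Prime] (hx : orderOf x = p)
    (hC : centralizer ({x} : Set G) = zpowers x)
    (he : 2 ≤ (zpowers x).relIndex (normalizer (zpowers x : Set G)))
    (ρ : Representation ℂ G V) [ρ.IsIrreducible] (hdeg : Module.finrank ℂ V + 1 = p) :
    ∃ (ι : Type) (_ : Fintype ι) (_ : DecidableEq ι) (v : Module.Basis ι ℂ V) (a : ι → ZMod p),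
      (∀ i, ρ x (v i) = (ZMod.stdAddChar (N := p)) (a i) • v i) ∧ Function.Injective a ∧
        ∀ i, a i ≠ 0 := by
  classical
  obtain ⟨ι, hι, hd, v, μ, h1, h2, -, -⟩ := Helper4.exists_eigenbasis_rep ρ x
  rw [hx] at h2
  have hp0 : p ≠ 0 := hp.out.ne_zero
  have hprim : IsPrimitiveRoot ((ZMod.stdAddChar (N := p)) 1) p := by
    have h := ZMod.stdAddChar_coe (N := p) 1
    simp only [Int.cast_one, mul_one] at h
    rw [h]
    exact Complex.isPrimitiveRoot_exp p hp0
  have hex : ∀ i, ∃ a : ZMod p, (ZMod.stdAddChar (N := p)) a = μ i := by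
    intro i
    obtain ⟨m, -, hm⟩ := hprim.eq_pow_of_pow_eq_one (h2 i)
    refine ⟨(m : ZMod p), ?_⟩
    rw [← hm, ← AddChar.map_nsmul_eq_pow, nsmul_eq_mul, mul_one]
  choose a ha using hex
  refine ⟨ι, hι, hd, v, a, fun i => by rw [ha, h1], ?_⟩
  obtain ⟨N, hN⟩ : ∃ N : Subgroup G, N = normalizer (zpowers x : Set G) := ⟨_, rfl⟩
  obtain ⟨e, he'⟩ : ∃ e : ℕ, e = (zpowers x).relIndex (normalizer (zpowers x : Set G)) := ⟨_, rfl⟩
  rw [← he'] at he
  have hcardN : Nat.card N = p * e := by rw [hN, he']; exact pm1_card_normalizer hx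
  obtain ⟨F, hFdef⟩ : ∃ F : ZMod p → ℂ, F = fun k => ρ.character (x ^ k.val) := ⟨_, rfl⟩
  have hF : ∀ k : ZMod p, F k = ∑ i, (ZMod.stdAddChar (N := p)) (a i * k) := by
    intro k
    have h3 : ∀ i, ρ (x ^ k.val) (v i) = μ i ^ k.val • v i := by
      intro i; rw [map_pow]; exact pow_apply_eigen (ρ x) (v i) (μ i) (h1 i) k.val
    rw [hFdef]
    simp only
    rw [Representation.character, Helper4.trace_eq_sum_of_eigenbasis v _ _ h3]
    refine Finset.sum_congr rfl (fun i _ => ?_)
    rw [← ha, ← AddChar.map_nsmul_eq_pow, nsmul_eq_mul, ZMod.natCast_zmod_val, mul_comm]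
  have hι' : Fintype.card ι + 1 = p := by
    rw [← Module.finrank_eq_card_basis v]; exact hdeg
  have hx1 : x ≠ 1 := by
    intro h
    rw [h, orderOf_one] at hx
    exact hp.out.one_lt.ne hx
  -- the TI inequality
  have hTI : ∑ k ∈ (Finset.univ.erase (0 : ZMod p)), ‖F k‖ ^ 2 < (p : ℝ) * e := by
    obtain ⟨A, hAdef⟩ : ∃ A : Finset G, A = (Finset.univ.erase (0 : ZMod p)).image
      (fun k => x ^ k.val) := ⟨_, rfl⟩
    have hA : ∀ z, z ∈ A ↔ (z ∈ zpowers x ∧ z ≠ 1) := by
      intro z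
      rw [hAdef, Finset.mem_image]
      constructor
      · rintro ⟨k, hk, rfl⟩
        exact ⟨Subgroup.pow_mem _ (mem_zpowers x) _, pm1_val_ne_one hx (Finset.ne_of_mem_erase hk)⟩
      · rintro ⟨hz, hz1⟩
        obtain ⟨k, hk⟩ := pm1_exists_val hx hz
        refine ⟨k, Finset.mem_erase.2 ⟨?_, Finset.mem_univ _⟩, hk⟩
        rintro rfl
        apply hz1
        rw [← hk, ZMod.val_zero, pow_zero]
    have hf1 : (0 : ℝ) < ‖ρ.character 1‖ ^ 2 := by
      rw [Representation.char_one]
      have : (0 : ℝ) < (Module.finrank ℂ V : ℝ) := by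
        have : 0 < Module.finrank ℂ V := by
          have := hp.out.two_le
          omega
        exact_mod_cast this
      rw [Complex.norm_natCast]
      positivity
    have h3 := pm1_ti hp.out hx (fun g => ‖ρ.character g‖ ^ 2)
      (fun g h => by rw [Helper4.isClassFunction_char ρ g h]) (fun g => by positivity) hf1 A hA
    rw [pm1_norm_sum ρ, ← hN, hcardN] at h3
    have hGpos : (0 : ℝ) < Fintype.card G := by exact_mod_cast Fintype.card_pos
    have h4 : ∑ z ∈ A, ‖ρ.character z‖ ^ 2 < ((p * e : ℕ) : ℝ) := by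
      by_contra hcon
      push Not at hcon
      nlinarith
    have h5 : ∑ z ∈ A, ‖ρ.character z‖ ^ 2 =
        ∑ k ∈ (Finset.univ.erase (0 : ZMod p)), ‖F k‖ ^ 2 := by
      rw [hAdef, Finset.sum_image (fun k _ l _ h => pm1_val_inj hx h), hFdef]
    rw [← h5]
    exact_mod_cast h4
  -- the multipliers
  have hkex : ∀ g : G, ∃ k : ZMod p, g ∈ N → x ^ k.val = g * x * g⁻¹ := by
    intro g
    by_cases hg : g ∈ N
    · rw [hN] at hg
      obtain ⟨k, hk⟩ := pm1_exists_val hx (Cfsg.Agent.Lib.Helper79.conj_mem_of_mem_normalizer hg)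
      exact ⟨k, fun _ => hk⟩
    · exact ⟨0, fun h => absurd h hg⟩
  choose kf hkf using hkex
  obtain ⟨C, hCdef⟩ : ∃ C : Finset (ZMod p), C = (Finset.univ.filter (fun g : G => g ∈ N)).image kf :=
    ⟨_, rfl⟩
  have hC0 : (0 : ZMod p) ∉ C := by
    rw [hCdef, Finset.mem_image]
    rintro ⟨g, hg, hg0⟩
    have h3 := hkf g (Finset.mem_filter.1 hg).2
    rw [hg0, ZMod.val_zero, pow_zero] at h3
    apply hx1
    have h4 := congrArg (fun z => g⁻¹ * z * g) h3
    simp only [mul_one, inv_mul_cancel] at h4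
    rw [h4]; group
  have hCe : e ≤ C.card := by
    have hfil : (Finset.univ.filter (fun g : G => g ∈ N)).card = Nat.card N := by
      rw [Nat.card_eq_fintype_card, Fintype.card_subtype]
    have hP : (Finset.univ.filter (fun g : G => g ∈ zpowers x)).card = p := by
      rw [← hx, ← Nat.card_zpowers, Nat.card_eq_fintype_card, Fintype.card_subtype]
    have h3 := Finset.card_le_mul_card_image (f := kf) (Finset.univ.filter (fun g : G => g ∈ N)) p
      (by
        intro c hc
        rw [Finset.mem_image] at hc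
        obtain ⟨g0, hg0, hg0c⟩ := hc
        refine le_of_le_of_eq (Finset.card_le_card_of_injOn (fun g => g0⁻¹ * g) ?_ ?_) hP
        · intro g hg
          rw [Finset.mem_coe, Finset.mem_filter] at hg
          rw [Finset.mem_coe, Finset.mem_filter]
          refine ⟨Finset.mem_univ _, ?_⟩
          have h4 := hkf g (Finset.mem_filter.1 hg.1).2
          have h5 := hkf g0 (Finset.mem_filter.1 hg0).2
          rw [hg.2] at h4
          rw [hg0c, h4] at h5
          show g0⁻¹ * g ∈ zpowers x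
          rw [← hC, Cfsg.Agent.Lib.Helper79.mem_centralizer_singleton_iff']
          have h6 : g0⁻¹ * g * x = g0⁻¹ * (g * x * g⁻¹) * g := by group
          rw [h6, h5]; group
        · intro a _ b _ hab
          exact mul_left_cancel hab)
    rw [hfil, hcardN, ← hCdef] at h3
    exact Nat.le_of_mul_le_mul_left h3 hp.out.pos
  have hinv : ∀ c ∈ C, ∀ k, F (c * k) = F k := by
    intro c hc k
    rw [hCdef, Finset.mem_image] at hc
    obtain ⟨g, hg, rfl⟩ := hc
    have h3 := hkf g (Finset.mem_filter.1 hg).2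
    rw [hFdef]
    simp only
    rw [pm1_pow_val_mul hx, h3, conj_pow, Helper4.isClassFunction_char ρ]
  exact pm1_fourier p e he a hι' F hF hTI C hC0 hCe hinv

theorem pm1_diag_repr {ι : Type*} [Fintype ι] [DecidableEq ι] (v : Module.Basis ι ℂ V)
    (f : V →ₗ[ℂ] V) (μ : ι → ℂ) (h : ∀ i, f (v i) = μ i • v i) (w : V) (k : ι) :
    v.repr (f w) k = μ k * v.repr w k := by
  have h1 : (v.coord k).comp f = μ k • v.coord k := by
    apply v.ext
    intro j
    simp only [LinearMap.comp_apply, LinearMap.smul_apply, Module.Basis.coord_apply, h, map_smul,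
      Module.Basis.repr_self, Finsupp.smul_apply, smul_eq_mul]
    by_cases hjk : j = k
    · subst hjk; simp
    · simp [Finsupp.single_apply, hjk]
  have h2 := congrArg (fun L => L w) h1
  simpa using h2

theorem pm1_vanish [hp : Fact p.Prime] (hx : orderOf x = p)
    (hC : centralizer ({x} : Set G) = zpowers x)
    (he : 2 ≤ (zpowers x).relIndex (normalizer (zpowers x : Set G)))
    (ρ : Representation ℂ G V) [ρ.IsIrreducible] (hdeg : Module.finrank ℂ V + 1 = p)
    {g : G} (hg : g ∈ normalizer (zpowers x : Set G)) (hg' : g ∉ zpowers x) :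
    ρ.character g = 0 := by
  classical
  obtain ⟨ι, hι, hd, v, a, hv, -, ha0⟩ := pm1_eigen hx hC he ρ hdeg
  obtain ⟨c, hc⟩ := pm1_exists_val hx (Cfsg.Agent.Lib.Helper79.conj_mem_of_mem_normalizer hg)
  have hc1 : c ≠ 1 := by
    rintro rfl
    have : Fact (1 < p) := ⟨hp.out.one_lt⟩
    rw [ZMod.val_one, pow_one] at hc
    apply hg'
    rw [← hC, Cfsg.Agent.Lib.Helper79.mem_centralizer_singleton_iff']
    have h6 : g * x = g * x * g⁻¹ * g := by group
    rw [h6, ← hc]
  rw [Representation.character, LinearMap.trace_eq_matrix_trace ℂ v, Matrix.trace]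
  refine Finset.sum_eq_zero (fun i _ => ?_)
  rw [Matrix.diag_apply, LinearMap.toMatrix_apply]
  -- `ρ (x ^ c.val) (ρ g (v i)) = μ i • ρ g (v i)`
  have h1 : ρ (x ^ c.val) (ρ g (v i)) = (ZMod.stdAddChar (N := p)) (a i) • ρ g (v i) := by
    rw [hc, ← Module.End.mul_apply, ← map_mul]
    have h6 : g * x * g⁻¹ * g = g * x := by group
    rw [h6, map_mul, Module.End.mul_apply, hv, map_smul]
  have h2 : ∀ j, ρ (x ^ c.val) (v j) = (ZMod.stdAddChar (N := p)) (a j * c) • v j := by
    intro j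
    rw [map_pow, pow_apply_eigen (ρ x) (v j) _ (hv j) c.val, ← AddChar.map_nsmul_eq_pow,
      nsmul_eq_mul, ZMod.natCast_zmod_val, mul_comm]
  have h3 := pm1_diag_repr v (ρ (x ^ c.val)) _ h2 (ρ g (v i)) i
  rw [h1, map_smul, Finsupp.smul_apply, smul_eq_mul] at h3
  have h4 : (ZMod.stdAddChar (N := p)) (a i) ≠ (ZMod.stdAddChar (N := p)) (a i * c) := by
    intro h
    have h5 := ZMod.injective_stdAddChar h
    apply hc1
    have h6 : a i * 1 = a i * c := by rw [mul_one]; exact h5
    exact (mul_left_cancel₀ (ha0 i) h6).symm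
  have h5 : ((ZMod.stdAddChar (N := p)) (a i) - (ZMod.stdAddChar (N := p)) (a i * c)) *
      v.repr (ρ g (v i)) i = 0 := by rw [sub_mul, h3, sub_self]
  rcases mul_eq_zero.1 h5 with h | h
  · exact absurd (sub_eq_zero.1 h) h4
  · exact h

end

end Cfsg.Agent.Lib.Helper20
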