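import Mathlib
import Cfsg.Agent.Lib.Helper4.Eigen
import Cfsg.Agent.Lib.Helper20.DetChar

/-!
# Determinant of an element of 2-power order whose nontrivial powers have character 0 (helper20)

If `y` has order `q = 2 ^ k ≥ 2`, the representation `ρ` has degree `q * u` with `u` odd, and the
character of `ρ` vanishes on all nontrivial powers of `y`, then `det (ρ y) = -1`
(the restriction to `⟨y⟩` is `u` copies of the regular representation).
-/

set_option autoImplicit false

namespace Cfsg.Agent.Lib.Helper20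

open Cfsg

theorem pm1_det {G : Type*} [Group G] [Finite G] {V : Type*} [AddCommGroup V] [Module ℂ V]
    [FiniteDimensional ℂ V] (ρ : Representation ℂ G V) (y : G) (k u : ℕ) (hk : 1 ≤ k)
    (hy : orderOf y = 2 ^ k) (hdim : Module.finrank ℂ V = 2 ^ k * u) (hu : Odd u)
    (hvan : ∀ j : ℕ, y ^ j ≠ 1 → ρ.character (y ^ j) = 0) :
    LinearMap.det (ρ y) = -1 := by
  classical
  obtain ⟨ι, hι, hd, v, μ, hμ, hμq, -, -⟩ := Helper4.exists_eigenbasis_rep ρ y
  rw [hy] at hμq
  obtain ⟨q, hq⟩ : ∃ q : ℕ, q = 2 ^ k := ⟨_, rfl⟩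
  obtain ⟨h, hh⟩ : ∃ h : ℕ, h = 2 ^ (k - 1) := ⟨_, rfl⟩
  have hqh : q = 2 * h := by
    rw [hq, hh, ← pow_succ']
    congr 1
    omega
  have hhpos : 0 < h := by rw [hh]; positivity
  rw [← hq] at hμq hy hdim
  have hq0 : q ≠ 0 := by omega
  obtain ⟨ζ, hζ⟩ : ∃ ζ : ℂ, IsPrimitiveRoot ζ q := ⟨_, Complex.isPrimitiveRoot_exp q hq0⟩
  have hζh : ζ ^ h = -1 := by
    have h1 : (ζ ^ h) ^ 2 = 1 := by
      rw [← pow_mul, mul_comm, ← hqh]
      exact hζ.pow_eq_one
    have h2 : ζ ^ h ≠ 1 := hζ.pow_ne_one_of_pos_of_lt hhpos.ne' (by omega)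
    have h3 : (ζ ^ h - 1) * (ζ ^ h + 1) = 0 := by
      have : (ζ ^ h - 1) * (ζ ^ h + 1) = (ζ ^ h) ^ 2 - 1 := by ring
      rw [this, h1, sub_self]
    rcases mul_eq_zero.1 h3 with h4 | h4
    · exact absurd (sub_eq_zero.1 h4) h2
    · exact eq_neg_of_add_eq_zero_left h4
  rw [det_eq_prod_of_eigenbasis v (ρ y) μ hμ]
  have hcard : Fintype.card ι = Fintype.card (Fin u × Fin q) := by
    rw [← Module.finrank_eq_card_basis v, hdim, Fintype.card_prod, Fintype.card_fin,
      Fintype.card_fin, mul_comm]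
  rw [prod_eq_of_psum_eq μ (fun ab : Fin u × Fin q => ζ ^ (ab.2 : ℕ)) hcard]
  · -- the product of the model
    rw [Fintype.prod_prod_type]
    simp only [Finset.prod_const, Finset.card_univ, Fintype.card_fin]
    rw [Fin.prod_univ_eq_prod_range (fun b => ζ ^ b) q, Finset.prod_pow_eq_pow_sum]
    have hsum : ∑ i ∈ Finset.range q, i = h * (q - 1) := by
      have h5 := Finset.sum_range_id_mul_two q
      have h6 : q * (q - 1) = h * (q - 1) * 2 := by rw [hqh]; ring
      rw [h6] at h5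
      exact Nat.eq_of_mul_eq_mul_right (by norm_num) h5
    rw [hsum, pow_mul, hζh]
    have hodd : Odd (q - 1) := by
      rw [hqh]
      exact ⟨h - 1, by omega⟩
    rw [hodd.neg_one_pow, hu.neg_one_pow]
  · intro j hj
    have h1 : ∀ i, ρ (y ^ j) (v i) = μ i ^ j • v i := fun i => by
      rw [map_pow]
      exact pow_apply_eigen (ρ y) (v i) (μ i) (hμ i) j
    have h2 : ∑ i, μ i ^ j = ρ.character (y ^ j) := by
      rw [Representation.character, Helper4.trace_eq_sum_of_eigenbasis v _ _ h1]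
    rw [Fintype.sum_prod_type]
    simp only [Finset.sum_const, Finset.card_univ, Fintype.card_fin, nsmul_eq_mul]
    have h3 : ∑ b : Fin q, (ζ ^ (b : ℕ)) ^ j = ∑ b ∈ Finset.range q, (ζ ^ j) ^ b := by
      rw [Fin.sum_univ_eq_sum_range (fun b => (ζ ^ b) ^ j) q]
      exact Finset.sum_congr rfl (fun b _ => pow_right_comm ζ b j)
    rw [h3]
    by_cases hqj : q ∣ j
    · obtain ⟨m, rfl⟩ := hqj
      have h4 : ∀ i, μ i ^ (q * m) = 1 := fun i => by rw [pow_mul, hμq, one_pow]
      have h5 : ζ ^ (q * m) = 1 := by rw [pow_mul, hζ.pow_eq_one, one_pow]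
      simp only [h4, h5, one_pow, Finset.sum_const, Finset.card_univ, Finset.card_range,
        nsmul_eq_mul, mul_one]
      rw [hcard, Fintype.card_prod, Fintype.card_fin, Fintype.card_fin]
      push_cast
      ring
    · have h4 : y ^ j ≠ 1 := by
        intro h
        exact hqj (hy ▸ orderOf_dvd_of_pow_eq_one h)
      have h5 : ζ ^ j ≠ 1 := fun h => hqj ((hζ.pow_eq_one_iff_dvd j).1 h)
      have h6 : ∑ b ∈ Finset.range q, (ζ ^ j) ^ b = 0 := by
        have h7 := mul_geom_sum (ζ ^ j) q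
        rw [pow_right_comm, hζ.pow_eq_one, one_pow, sub_self] at h7
        rcases mul_eq_zero.1 h7 with h8 | h8
        · exact absurd (sub_eq_zero.1 h8) h5
        · exact h8
      rw [h2, hvan j h4, h6, mul_zero]

end Cfsg.Agent.Lib.Helper20
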