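import Mathlib
import Cfsg.Agent.Lib.Helper20.PM1c

/-!
# A cyclic 2-subgroup of `N_G(⟨x⟩)` acting faithfully on `⟨x⟩` (helper20)
-/

set_option autoImplicit false

namespace Cfsg.Agent.Lib.Helper20

open Subgroup

theorem pm1_exists_two_elt {G : Type*} [Group G] [Finite G] {p : ℕ} [hp : Fact p.Prime] {x : G}
    (hx : orderOf x = p) (hC : centralizer ({x} : Set G) = zpowers x) (hp2 : p ≠ 2)
    (k : ℕ) (hk : 2 ^ k ∣ (zpowers x).relIndex (normalizer (zpowers x : Set G))) :
    ∃ y : G, y ∈ normalizer (zpowers x : Set G) ∧ orderOf y = 2 ^ k ∧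
      ∀ j : ℕ, y ^ j ≠ 1 → y ^ j ∉ zpowers x := by
  classical
  have hcardN := pm1_card_normalizer hx
  have hdvd : 2 ^ k ∣ Nat.card (normalizer (zpowers x : Set G)) := by
    rw [hcardN]; exact Dvd.dvd.mul_left hk p
  have : Fact (Nat.Prime 2) := ⟨Nat.prime_two⟩
  obtain ⟨K, hK⟩ := Sylow.exists_subgroup_card_pow_prime 2 hdvd
  have hcop : Nat.Coprime p (2 ^ k) := by
    apply Nat.Coprime.pow_right
    rw [Nat.coprime_primes hp.out Nat.prime_two]
    exact hp2
  -- elements of `zpowers x` of 2-power order are trivial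
  have hkey : ∀ z : G, z ∈ zpowers x → orderOf z ∣ 2 ^ k → z = 1 := by
    intro z hz hz2
    have h1 : orderOf z ∣ p := by
      rw [← hx]; exact orderOf_dvd_of_mem_zpowers hz
    have h2 : orderOf z ∣ Nat.gcd p (2 ^ k) := Nat.dvd_gcd h1 hz2
    rw [hcop.gcd_eq_one, Nat.dvd_one] at h2
    exact orderOf_eq_one_iff.1 h2
  have : Fact (Nat.card (zpowers x)).Prime := ⟨by rw [Nat.card_zpowers, hx]; exact hp.out⟩
  have : IsCyclic (MulAut (zpowers x)) :=
    isCyclic_of_injective (IsCyclic.mulAutMulEquiv (zpowers x)).toMonoidHom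
      (IsCyclic.mulAutMulEquiv (zpowers x)).injective
  let φ : K →* MulAut (zpowers x) := ((zpowers x).normalizerMonoidHom).comp K.subtype
  have hφ : Function.Injective φ := by
    rw [injective_iff_map_eq_one]
    intro n hn
    have h1 : (n : normalizer (zpowers x : Set G)) ∈ ((zpowers x).normalizerMonoidHom).ker := hn
    rw [normalizerMonoidHom_ker, mem_subgroupOf, mem_centralizer_iff] at h1
    have h2 : ((n : normalizer (zpowers x : Set G)) : G) ∈ zpowers x := by
      have h2' : ((n : normalizer (zpowers x : Set G)) : G) ∈ centralizer ({x} : Set G) := by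
        rw [Cfsg.Agent.Lib.Helper79.mem_centralizer_singleton_iff']
        exact (h1 x (mem_zpowers x)).symm
      rw [hC] at h2'
      exact h2'
    have h3 : orderOf ((n : normalizer (zpowers x : Set G)) : G) ∣ 2 ^ k := by
      rw [Subgroup.orderOf_coe, Subgroup.orderOf_coe, ← hK]
      exact orderOf_dvd_natCard n
    have h4 := hkey _ h2 h3
    exact Subtype.ext (Subtype.ext h4)
  have : IsCyclic K := isCyclic_of_injective φ hφ
  obtain ⟨y0, hy0⟩ := IsCyclic.exists_generator (α := K)
  have hy0ord : orderOf y0 = 2 ^ k := by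
    rw [orderOf_eq_card_of_forall_mem_zpowers hy0, hK]
  refine ⟨((y0 : normalizer (zpowers x : Set G)) : G), (y0 : normalizer (zpowers x : Set G)).2, ?_, ?_⟩
  · rw [Subgroup.orderOf_coe, Subgroup.orderOf_coe, hy0ord]
  · intro j hj hmem
    apply hj
    apply hkey _ hmem
    have h1 : orderOf ((y0 : normalizer (zpowers x : Set G)) : G) = 2 ^ k := by
      rw [Subgroup.orderOf_coe, Subgroup.orderOf_coe, hy0ord]
    rw [← h1]
    exact orderOf_pow_dvd j

end Cfsg.Agent.Lib.Helper20
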