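import Mathlib
import Cfsg.Agent.Lib.Helper72.PQDefs
import Cfsg.Agent.Lib.Helper12.Ward2

/-!
# Piece PQ-IABX of S4306 (helper72): type I, `Q` abelian, the key computation
-/

set_option autoImplicit false

namespace Cfsg.Agent.Lib.Helper20.PQ

open Cfsg.Agent.Lib.Helper72.PQ
open Cfsg.Agent.Lib.Helper12.Ward (conj_mem_of_nz conj_mem_of_nz' nz_inf nz_centralizer)

universe u

/-- the subgroup of `N(Q)` acting trivially on `Q / Y` -/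
def trivOn {Γ : Type u} [Group Γ] (Q Y : Subgroup Γ) (hYQ : Y ≤ Q) : Subgroup Γ where
  carrier := {g | g ∈ Subgroup.normalizer (Q : Set Γ) ∧ ∀ y ∈ Q, g * y * g⁻¹ * y⁻¹ ∈ Y}
  mul_mem' := by
    rintro g h ⟨hg, hg'⟩ ⟨hh, hh'⟩
    refine ⟨Subgroup.mul_mem _ hg hh, fun y hy => ?_⟩
    have e : g * h * y * (g * h)⁻¹ * y⁻¹ =
        (g * (h * y * h⁻¹ * y⁻¹) * g⁻¹ * (h * y * h⁻¹ * y⁻¹)⁻¹) * (h * y * h⁻¹ * y⁻¹) *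
          (g * y * g⁻¹ * y⁻¹) := by group
    rw [e]
    exact Subgroup.mul_mem _ (Subgroup.mul_mem _ (hg' _ (hYQ (hh' y hy))) (hh' y hy)) (hg' y hy)
  one_mem' := by
    refine ⟨Subgroup.one_mem _, fun y hy => ?_⟩
    have e : (1 : Γ) * y * 1⁻¹ * y⁻¹ = 1 := by group
    rw [e]; exact Subgroup.one_mem _
  inv_mem' := by
    rintro g ⟨hg, hg'⟩
    refine ⟨Subgroup.inv_mem _ hg, fun y hy => ?_⟩
    have e : g⁻¹ * y * g⁻¹⁻¹ * y⁻¹ = (g * (g⁻¹ * y * g) * g⁻¹ * (g⁻¹ * y * g)⁻¹)⁻¹ := by group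
    rw [e]
    exact Subgroup.inv_mem _ (hg' _ (conj_mem_of_nz' hg hy))

theorem mem_trivOn {Γ : Type u} [Group Γ] {Q Y : Subgroup Γ} (hYQ : Y ≤ Q) {g : Γ} :
    g ∈ trivOn Q Y hYQ ↔
      g ∈ Subgroup.normalizer (Q : Set Γ) ∧ ∀ y ∈ Q, g * y * g⁻¹ * y⁻¹ ∈ Y := Iff.rfl

/-- elements commuting modulo a subgroup they normalize: `(a b)^k ≡ a^k b^k` -/
theorem mul_pow_mod {Γ : Type u} [Group Γ] (C : Subgroup Γ) (a b : Γ)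
    (ha : a ∈ Subgroup.normalizer (C : Set Γ)) (hb : b ∈ Subgroup.normalizer (C : Set Γ))
    (hab : a * b * a⁻¹ * b⁻¹ ∈ C) (k : ℕ) : (a ^ k * b ^ k)⁻¹ * (a * b) ^ k ∈ C := by
  have : (C.subgroupOf (Subgroup.normalizer (C : Set Γ))).Normal := Subgroup.normal_in_normalizer
  let π : Subgroup.normalizer (C : Set Γ) →*
      Subgroup.normalizer (C : Set Γ) ⧸ C.subgroupOf (Subgroup.normalizer (C : Set Γ)) :=
    QuotientGroup.mk' _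
  have h1 : π (⟨a, ha⟩ * ⟨b, hb⟩ * ⟨a, ha⟩⁻¹ * ⟨b, hb⟩⁻¹) = 1 := by
    rw [QuotientGroup.mk'_apply, QuotientGroup.eq_one_iff]
    exact hab
  rw [map_mul, map_mul, map_mul, map_inv, map_inv] at h1
  have hcomm : Commute (π ⟨a, ha⟩) (π ⟨b, hb⟩) := by
    unfold Commute SemiconjBy
    calc π ⟨a, ha⟩ * π ⟨b, hb⟩
        = (π ⟨a, ha⟩ * π ⟨b, hb⟩ * (π ⟨a, ha⟩)⁻¹ * (π ⟨b, hb⟩)⁻¹) * π ⟨b, hb⟩ * π ⟨a, ha⟩ := by
          group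
      _ = π ⟨b, hb⟩ * π ⟨a, ha⟩ := by rw [h1, one_mul]
  have h2 : π ((⟨a, ha⟩ : Subgroup.normalizer (C : Set Γ)) ^ k * ⟨b, hb⟩ ^ k) =
      π ((⟨a, ha⟩ * ⟨b, hb⟩) ^ k) := by
    rw [map_pow, map_mul, map_mul, map_pow, map_pow, hcomm.mul_pow]
  have h3 := QuotientGroup.eq.mp h2
  have h4 := Subgroup.mem_subgroupOf.mp h3
  simpa using h4

/-- PQ-IABX -/
theorem iabx (h1 : L1Stmt.{u}) : IabXStmt.{u} := by
  intro Γ _ _ p ℓ r q s A F V Q R tw hI hQab Y hYQ t htA htF htY x hx t' ht'A hf₁ hx' y hy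
  have hnzC_R : ∀ g ∈ R, g ∈ Subgroup.normalizer ((cz R Q : Subgroup Γ) : Set Γ) := fun g hg =>
    nz_inf (Subgroup.le_normalizer hg) (nz_centralizer (tw.hRQ hg))
  have hnzC_A : ∀ g ∈ A, g ∈ Subgroup.normalizer ((cz R Q : Subgroup Γ) : Set Γ) := fun g hg =>
    nz_inf (tw.hAR hg) (nz_centralizer (tw.hAQ hg))
  have hCD : cz R Q ≤ trivOn Q Y hYQ := by
    intro c hc
    have hc' := mem_cz.mp hc
    refine (mem_trivOn hYQ).mpr ⟨tw.hRQ hc'.1, fun y hy => ?_⟩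
    have e : c * y * c⁻¹ * y⁻¹ = 1 := by
      rw [← hc'.2 y hy]; group
    rw [e]; exact Subgroup.one_mem _
  have htD : t ∈ trivOn Q Y hYQ := (mem_trivOn hYQ).mpr ⟨tw.hAQ htA, htY⟩
  have hgD : x⁻¹ * t' * x ∈ trivOn Q Y hYQ := by
    refine (mem_trivOn hYQ).mpr ⟨Subgroup.mul_mem _ (Subgroup.mul_mem _
      (Subgroup.inv_mem _ (tw.hRQ hx)) (tw.hAQ ht'A)) (tw.hRQ hx), fun y hy => ?_⟩
    have hy2 : x * y * x⁻¹ ∈ Q := conj_mem_of_nz (tw.hRQ hx) hy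
    have h := hx' _ hy2
    have e : x⁻¹ * t' * x * y * (x⁻¹ * t' * x)⁻¹ * y⁻¹ =
        x⁻¹ * (t' * (x * y * x⁻¹) * t'⁻¹ * (x * y * x⁻¹)⁻¹) * x := by group
    rw [e]; exact h
  obtain ⟨f₁, hf₁def⟩ : ∃ f₁, f₁ = t⁻¹ * t' := ⟨_, rfl⟩
  rw [← hf₁def] at hf₁
  have hfA : f₁ ∈ A := tw.frob.hFA hf₁
  obtain ⟨y₀, hy₀⟩ : ∃ y₀, y₀ = t⁻¹ * x⁻¹ * t * x := ⟨_, rfl⟩
  rw [← hy₀]
  have hy₀R : y₀ ∈ R := by
    rw [hy₀]
    exact Subgroup.mul_mem _ (conj_mem_of_nz' (tw.hAR htA) (Subgroup.inv_mem _ hx)) hx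
  obtain ⟨c₁, hc₁⟩ : ∃ c₁, c₁ = x⁻¹ * f₁ * x * f₁⁻¹ := ⟨_, rfl⟩
  have hc₁C : c₁ ∈ cz R Q := by
    have h := hI f₁ hf₁ x⁻¹ (Subgroup.inv_mem _ hx)
    have e : c₁ = (f₁ * x⁻¹ * f₁⁻¹ * x⁻¹⁻¹)⁻¹ := by rw [hc₁]; group
    rw [e]; exact Subgroup.inv_mem _ h
  have h1D : y₀ * c₁ * f₁ ∈ trivOn Q Y hYQ := by
    have e : y₀ * c₁ * f₁ = t⁻¹ * (x⁻¹ * t' * x) := by rw [hy₀, hc₁, hf₁def]; group
    rw [e]; exact Subgroup.mul_mem _ (Subgroup.inv_mem _ htD) hgD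
  have h2D : y₀ * f₁ ∈ trivOn Q Y hYQ := by
    have e : y₀ * f₁ = (y₀ * c₁ * f₁) * (f₁⁻¹ * c₁⁻¹ * f₁) := by group
    rw [e]
    exact Subgroup.mul_mem _ h1D
      (hCD (conj_mem_of_nz' (hnzC_A f₁ hfA) (Subgroup.inv_mem _ hc₁C)))
  have hcomm : y₀ * f₁ * y₀⁻¹ * f₁⁻¹ ∈ cz R Q := by
    have h := hI f₁ hf₁ y₀⁻¹ (Subgroup.inv_mem _ hy₀R)
    have e : y₀ * f₁ * y₀⁻¹ * f₁⁻¹ = y₀ * (f₁ * y₀⁻¹ * f₁⁻¹ * y₀⁻¹⁻¹) * y₀⁻¹ := by group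
    rw [e]; exact conj_mem_of_nz (hnzC_R y₀ hy₀R) h
  have hp := mul_pow_mod (cz R Q) y₀ f₁ (hnzC_R y₀ hy₀R) (hnzC_A f₁ hfA) hcomm p
  have hfp : f₁ ^ p = 1 := by
    have h := pow_card_eq_one' (G := F) (x := ⟨f₁, hf₁⟩)
    rw [tw.frob.hF] at h
    exact congrArg Subtype.val h
  rw [hfp, mul_one] at hp
  have hy₀p : y₀ ^ p ∈ trivOn Q Y hYQ := by
    have e : y₀ ^ p = (y₀ * f₁) ^ p * ((y₀ ^ p)⁻¹ * (y₀ * f₁) ^ p)⁻¹ := by group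
    rw [e]
    exact Subgroup.mul_mem _ (Subgroup.pow_mem _ h2D p) (Subgroup.inv_mem _ (hCD hp))
  have hy₀D : y₀ ∈ trivOn Q Y hYQ := by
    obtain ⟨k, hk⟩ := tw.hRs ⟨y₀, hy₀R⟩
    have hk' : y₀ ^ (s ^ k) = 1 := congrArg Subtype.val hk
    have hcop : Nat.Coprime p (s ^ k) :=
      Nat.Coprime.pow_right k ((Nat.coprime_primes tw.frob.hp tw.hs).mpr tw.hps)
    by_cases h1k : s ^ k = 1
    · rw [h1k, pow_one] at hk'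
      rw [hk']; exact Subgroup.one_mem _
    · have h1lt : 1 < s ^ k := by
        have : 0 < s ^ k := pow_pos tw.hs.pos k
        omega
      obtain ⟨j, -, hj⟩ := Nat.exists_mul_mod_eq_one_of_coprime hcop h1lt
      have e : y₀ = (y₀ ^ p) ^ j := by
        rw [← pow_mul, pow_eq_pow_mod (p * j) hk', hj, pow_one]
      rw [e]; exact Subgroup.pow_mem _ hy₀p j
  exact ((mem_trivOn hYQ).mp hy₀D).2 y hy

end Cfsg.Agent.Lib.Helper20.PQ
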