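import Mathlib
import Cfsg.Prelude.Def_RootSubgroups
import Cfsg.Agent.Lib.Helper12.RootInv
import Cfsg.Agent.Lib.Helper20.RI1
import Cfsg.Agent.Lib.Helper97.RISCOMM
import Cfsg.Agent.Lib.Helper43.RILEMA
import Cfsg.Agent.Lib.Helper23.RIMUCOMM
import Cfsg.Agent.Lib.Helper18.RIZETA
import Cfsg.Agent.Lib.Helper92.RILEMN

set_option autoImplicit false

namespace Cfsg.Agent.Lib.Helper20.RI

open Cfsg Cfsg.Agent.Lib.Helper12.RootInv

variable {G : Type*} [Group G]

/-- the final configuration is impossible -/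
theorem config_false {D : Set G} (hD : IsRootInvolutionSet D) {a u β x : G} (ha : a ∈ D) (hu : u ∈ D)
    (hβ : β ∈ D) (hx : x ∈ D) (hau : a * u = u * a) (hA : oddPartners D a = oddPartners D u)
    (hβu : β * u = u * β) (haβ : a * β * a = u * β) (hodd : Odd (orderOf (u * x))) (hxu : x ≠ u)
    (h4 : orderOf (β * x) = 4) : False := by
  have huβ : u * β ∈ D := by
    rw [← haβ]; have := hD.conj_mem β hβ a; rwa [ri_inv hD ha] at this
  have hcomm := Cfsg.Agent.Lib.Helper92.RI.lemma_N hD hu hβ hx hβu huβ hodd hxu h4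
  exact Cfsg.Agent.Lib.Helper18.RI.zeta_false hD ha hu hβ hx hau hβu haβ hodd hxu hcomm
    (Cfsg.Agent.Lib.Helper23.RI.mu_comm hD
      (fun h1 h2 h3 h4 h5 h6 h7 h8 h9 h10 h11 =>
        Cfsg.Agent.Lib.Helper43.RI.lemma_A hD h1 h2 h3 h4 h5 h6 h7 h8 h9 h10 h11)
      ha hu hβ hx hau hA hβu haβ hodd hcomm)

/-- if `a`, `u` have the same odd partners, every member commuting with `u` commutes with `a` -/
theorem lc_sub [Finite G] {D : Set G} (hD : IsRootInvolutionSet D)
    (hconj : ∀ a ∈ D, ∀ b ∈ D, ∃ g : G, b = g * a * g⁻¹) {a u c : G} (ha : a ∈ D) (hu : u ∈ D)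
    (hc : c ∈ D) (hA : oddPartners D a = oddPartners D u) (hcu : c * u = u * c) : c * a = a * c := by
  by_contra hca
  have ha2 := ri_sq hD ha
  have hc2 := ri_sq hD hc
  have h1 : c ∉ oddPartners D a := by rw [hA]; exact not_mem_odd_of_comm hD hu hcu
  have h2 : ¬ Odd (orderOf (a * c)) := fun ho => h1 ⟨hc, fun e => hca (by rw [e]), ho⟩
  obtain ⟨h4, hzD⟩ := four_of_not hD ha hc (fun e => hca e.symm) h2
  have hp4 := four_pow h4
  have hza : a * (a * c) ^ 2 = (a * c) ^ 2 * a := sq_comm_left ha2 hc2 hp4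
  have hzc : c * (a * c) ^ 2 = (a * c) ^ 2 * c := sq_comm_right ha2 hc2 hp4
  have hazD : a * (a * c) ^ 2 ∈ D := by
    rw [inv_sq_left ha2]
    have := hD.conj_mem a ha c
    rwa [ri_inv hD hc] at this
  have hzcD : (a * c) ^ 2 * c ∈ D := by
    rw [inv_sq_right hc2]
    have := hD.conj_mem c hc a
    rwa [ri_inv hD ha] at this
  -- odd partners of `a z` are those of `a`
  have hAaz : oddPartners D a = oddPartners D (a * (a * c) ^ 2) := by
    have e1 : a * (a * c) ^ 2 = c * a * c⁻¹ := by rw [inv_sq_left ha2, ri_inv hD hc]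
    have e2 : c * u * c⁻¹ = u := by rw [hcu, mul_assoc, ri_inv hD hc, hc2, mul_one]
    rw [e1, oddPartners_conj_eq hD c hA, e2, hA]
  have hAz : oddPartners D ((a * c) ^ 2) = oddPartners D a := line_lemma hD hconj ha hzD hza hazD hAaz
  -- `c` does not have the odd partners of `a`
  have hAc : oddPartners D c ≠ oddPartners D a :=
    fun e => hca (Cfsg.Agent.Lib.Helper97.RI.same_odd_commute hD hconj hc ha e)
  obtain ⟨x, hxa, hxc⟩ : ∃ x, x ∈ oddPartners D a ∧ x ∉ oddPartners D c := by
    by_contra hne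
    push Not at hne
    exact hAc (Set.eq_of_subset_of_ncard_le hne (le_of_eq (ncard_oddPartners_eq hD hconj hc ha))
      (Set.toFinite _)).symm
  have hxz : x ∈ oddPartners D ((a * c) ^ 2) := by rw [hAz]; exact hxa
  obtain ⟨hxD, hxne, hxodd⟩ := hxz
  have hxc' : x ≠ c := by
    intro e
    rw [e] at hxa
    exact h1 hxa
  have hcxodd : ¬ Odd (orderOf (c * x)) := fun ho => hxc ⟨hxD, hxc', ho⟩
  have hcx : c * x ≠ x * c := by
    intro e
    have := l2 hD hc2 (ri_ne_one hD hc) hzc.symm hzcD hxD e.symm hxodd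
    exact hxne this.symm
  have h4' := (four_of_not hD hc hxD hcx hcxodd).1
  exact config_false hD ha hzD hc hxD hza hAz.symm hzc (inv_sq_right hc2).symm hxodd hxne h4'

/-- main theorem: same odd partners implies same commuting members -/
theorem comm_eq_of_odd_eq [Finite G] {D : Set G} (hD : IsRootInvolutionSet D)
    (hconj : ∀ a ∈ D, ∀ b ∈ D, ∃ g : G, b = g * a * g⁻¹) {a u : G} (ha : a ∈ D) (hu : u ∈ D)
    (hA : oddPartners D a = oddPartners D u) : commutingMembers D a = commutingMembers D u := by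
  ext c
  constructor
  · rintro ⟨hc, h⟩
    exact ⟨hc, lc_sub hD hconj hu ha hc hA.symm h⟩
  · rintro ⟨hc, h⟩
    exact ⟨hc, lc_sub hD hconj ha hu hc hA h⟩

/-- the description of the class `E_d` (statement S5046) -/
theorem sameCommutingClass_eq [Finite G] {D : Set G} (hD : Cfsg.IsRootInvolutionSet D)
    (hc : Cfsg.IsConnectedSet (Cfsg.OddAdj D) D) {d : G} (hd : d ∈ D) :
    Cfsg.sameCommutingClass D d =
      {e | e ∈ D ∧ Cfsg.commutingMembers D d ∪ Cfsg.fourPartners D d =
        Cfsg.commutingMembers D e ∪ Cfsg.fourPartners D e} := by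
  have hconj := conj_class hD hc
  ext e
  constructor
  · rintro ⟨he, h⟩
    refine ⟨he, ?_⟩
    have hV : fourPartners D d = fourPartners D e := by
      ext x
      exact ⟨fun hx => four_of_comm_eq hD hd he h hx, fun hx => four_of_comm_eq hD he hd h.symm hx⟩
    rw [h, hV]
  · rintro ⟨he, h⟩
    refine ⟨he, ?_⟩
    apply comm_eq_of_odd_eq hD hconj hd he
    ext x
    constructor
    · intro hx
      have hxD : x ∈ D := hx.1
      rw [mem_odd_iff hD he hxD, ← h, ← mem_odd_iff hD hd hxD]
      exact hx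
    · intro hx
      have hxD : x ∈ D := hx.1
      rw [mem_odd_iff hD hd hxD, h, ← mem_odd_iff hD he hxD]
      exact hx

/-- members of `D` have the same commuting members iff they have the same odd partners -/
theorem comm_eq_iff_odd_eq [Finite G] {D : Set G} (hD : IsRootInvolutionSet D)
    (hc : Cfsg.IsConnectedSet (Cfsg.OddAdj D) D) {a u : G} (ha : a ∈ D) (hu : u ∈ D) :
    commutingMembers D a = commutingMembers D u ↔ oddPartners D a = oddPartners D u := by
  constructor
  · intro h
    have hV : fourPartners D a = fourPartners D u := by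
      ext x
      exact ⟨fun hx => four_of_comm_eq hD ha hu h hx, fun hx => four_of_comm_eq hD hu ha h.symm hx⟩
    ext x
    constructor
    · intro hx
      have hxD : x ∈ D := hx.1
      rw [mem_odd_iff hD hu hxD, ← h, ← hV, ← mem_odd_iff hD ha hxD]
      exact hx
    · intro hx
      have hxD : x ∈ D := hx.1
      rw [mem_odd_iff hD ha hxD, h, hV, ← mem_odd_iff hD hu hxD]
      exact hx
  · exact comm_eq_of_odd_eq hD (conj_class hD hc) ha hu

end Cfsg.Agent.Lib.Helper20.RI
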