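import Mathlib
import Cfsg.Prelude.Def_GeometricClasses
import Cfsg.Prelude.Def_LieClassical
import Cfsg.Agent.Lib.Helper96.SpDefs

/-!
# Project SPP (helper71), piece EVENM

An invertible alternating matrix (`Mᵀ = -M`, zero diagonal, `det M ≠ 0`; any characteristic) has
even size.  Proof: `B u v = u ⬝ᵥ M *ᵥ v` is an alternating bilinear form on `Fin k → F`
(`B v v = 0` holds on the vectors `Pi.single a c` and the set of such `v` is closed under
addition because `B` is skew), non-degenerate because `det M ≠ 0`; apply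
`Cfsg.Agent.Lib.Helper96.Sp.even_finrank_of_nd`.  (Proved by helper20.)
-/

set_option autoImplicit false

namespace Cfsg.Agent.Lib.Helper20.SPPEVENM

open Matrix Cfsg.Geo

variable {n : ℕ} {F : Type*} [Field F] [Fintype F]

omit [Fintype F] in
/-- the bilinear form of a skew matrix with zero diagonal is alternating -/
theorem EVENM_alt {k : ℕ} (M : Matrix (Fin k) (Fin k) F) (hM : Mᵀ = -M)
    (hdiag : ∀ a, M a a = 0) (v : Fin k → F) : v ⬝ᵥ M *ᵥ v = 0 := by
  classical
  have hskew : ∀ u w : Fin k → F, u ⬝ᵥ M *ᵥ w = -(w ⬝ᵥ M *ᵥ u) := by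
    intro u w
    have h1 : u ⬝ᵥ M *ᵥ w = w ⬝ᵥ Mᵀ *ᵥ u := by
      rw [Matrix.mulVec_transpose, Matrix.dotProduct_mulVec, dotProduct_comm]
    rw [h1, hM, Matrix.neg_mulVec, dotProduct_neg]
  have hsingle : ∀ (a : Fin k) (c : F), Pi.single a c ⬝ᵥ M *ᵥ Pi.single a c = 0 := by
    intro a c
    rw [single_dotProduct]
    have h1 : (M *ᵥ Pi.single a c) a = M a a * c := by
      simp [Matrix.mulVec, dotProduct, Pi.single_apply]
    rw [h1, hdiag, zero_mul, mul_zero]
  have hadd : ∀ u w : Fin k → F, u ⬝ᵥ M *ᵥ u = 0 → w ⬝ᵥ M *ᵥ w = 0 →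
      (u + w) ⬝ᵥ M *ᵥ (u + w) = 0 := by
    intro u w hu hw
    rw [Matrix.mulVec_add, add_dotProduct, dotProduct_add, dotProduct_add, hu, hw,
      hskew w u]
    ring
  have hsum : ∀ s : Finset (Fin k),
      (∑ a ∈ s, Pi.single a (v a)) ⬝ᵥ M *ᵥ (∑ a ∈ s, Pi.single a (v a)) = 0 := by
    intro s
    induction s using Finset.induction_on with
    | empty => simp
    | insert a s ha ih =>
      rw [Finset.sum_insert ha]
      exact hadd _ _ (hsingle a (v a)) ih
  have h := hsum Finset.univ
  rw [Finset.univ_sum_single] at h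
  exact h

/-- EVENM: an invertible alternating matrix has even size. -/
theorem EVENM {k : ℕ} (M : Matrix (Fin k) (Fin k) F) (hM : Mᵀ = -M) (hdiag : ∀ a, M a a = 0)
    (hdet : M.det ≠ 0) : Even k := by
  classical
  have hA : (Matrix.toBilin' M).IsAlt := by
    intro v
    rw [Matrix.toBilin'_apply']
    exact EVENM_alt M hM hdiag v
  have hND : Cfsg.Agent.Lib.Helper96.Sp.ND (Matrix.toBilin' M) ⊤ := by
    intro u _ h
    have h1 : u ᵥ* M = 0 := by
      apply dotProduct_eq_zero
      intro w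
      have h2 := h w Submodule.mem_top
      rw [Matrix.toBilin'_apply', Matrix.dotProduct_mulVec] at h2
      exact h2
    exact Matrix.eq_zero_of_vecMul_eq_zero hdet h1
  have h := Cfsg.Agent.Lib.Helper96.Sp.even_finrank_of_nd hA ⊤ hND
  rwa [finrank_top, Module.finrank_fin_fun] at h

end Cfsg.Agent.Lib.Helper20.SPPEVENM
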