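import Mathlib
import Cfsg.Prelude.Def_GeometricClasses
import Cfsg.Prelude.Def_LieClassical
import Cfsg.Agent.Lib.Helper7.GUOrder
import Cfsg.Agent.Lib.Helper53.SUConj

/-!
# Project SUP (helper71), piece U4

A field subalgebra `K` of degree `n` lying in the centre of the commutant of `L ≤ GU_n(q)` is
closed under adjoints for the hermitian form: the adjoint of `k` is `(k.map (· ^ q))ᵀ`.

* `U4_hf_adj`: `f (X u) v = f u (adj X v)`.
* `U4_adj_comm`: the commutant of `x ∈ GU` is closed under `adj`.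
* `U4_cent`: a field subalgebra of degree `n` is its own centraliser in the matrix algebra.
(Proved by helper20.)
-/

set_option autoImplicit false

namespace Cfsg.Agent.Lib.Helper20.SUPU4

open Matrix Cfsg.Geo

variable {n : ℕ} {F : Type*} [Field F] [Fintype F] {q : ℕ}

/-- (a) the adjoint identity for the hermitian form. -/
theorem U4_hf_adj (hF : Fintype.card F = q ^ 2) (X : Matrix (Fin n) (Fin n) F)
    (u v : Fin n → F) :
    Cfsg.hermForm n F q (X *ᵥ u) v = Cfsg.hermForm n F q u ((X.map (· ^ q))ᵀ *ᵥ v) := by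
  classical
  have hpow : ∀ (s : Finset (Fin n)) (g : Fin n → F),
      (∑ i ∈ s, g i) ^ q = ∑ i ∈ s, g i ^ q := by
    intro s g
    induction s using Finset.induction_on with
    | empty => simp [Cfsg.Agent.Lib.Helper7.herm_q_ne_zero hF]
    | insert a s ha ih =>
      rw [Finset.sum_insert ha, Finset.sum_insert ha, Cfsg.Agent.Lib.Helper7.herm_add_pow hF, ih]
  unfold Cfsg.hermForm
  simp only [Matrix.mulVec, dotProduct, Matrix.transpose_apply, Matrix.map_apply]
  have h2 : ∀ j : Fin n, (∑ i, X i j ^ q * v i) ^ q = ∑ i, X i j * v i ^ q := by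
    intro j
    rw [hpow]
    refine Finset.sum_congr rfl (fun i _ => ?_)
    rw [mul_pow, Cfsg.Agent.Lib.Helper7.herm_pow_pow hF]
  simp_rw [h2, Finset.sum_mul, Finset.mul_sum]
  rw [Finset.sum_comm]
  refine Finset.sum_congr rfl (fun j _ => Finset.sum_congr rfl (fun i _ => ?_))
  ring

/-- (b) the commutant of an element of `GU` is closed under the adjoint. -/
theorem U4_adj_comm (hF : Fintype.card F = q ^ 2) (x : GL (Fin n) F)
    (hx : x ∈ Cfsg.GU n F q) (X : Matrix (Fin n) (Fin n) F)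
    (hX : X * (x : Matrix (Fin n) (Fin n) F) = (x : Matrix (Fin n) (Fin n) F) * X) :
    (X.map (· ^ q))ᵀ * (x : Matrix (Fin n) (Fin n) F)
      = (x : Matrix (Fin n) (Fin n) F) * (X.map (· ^ q))ᵀ := by
  have h0 := (Cfsg.Agent.Lib.Helper53.AutPSU.mem_GU_mat hF x).1 hx
  have h1 : ((x : Matrix (Fin n) (Fin n) F).map (· ^ q))ᵀ * (x : Matrix (Fin n) (Fin n) F)
      = 1 := by
    have := congrArg Matrix.transpose h0
    rw [Matrix.transpose_mul, Matrix.transpose_transpose, Matrix.transpose_one] at this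
    exact this
  have h2 : (x : Matrix (Fin n) (Fin n) F) * ((x : Matrix (Fin n) (Fin n) F).map (· ^ q))ᵀ
      = 1 := mul_eq_one_comm.1 h1
  have h3 : ((x : Matrix (Fin n) (Fin n) F).map (· ^ q))ᵀ * (X.map (· ^ q))ᵀ
      = (X.map (· ^ q))ᵀ * ((x : Matrix (Fin n) (Fin n) F).map (· ^ q))ᵀ := by
    rw [← Matrix.transpose_mul, ← Matrix.transpose_mul,
      ← Cfsg.Agent.Lib.Helper53.AutPSU.map_frob_mul hF,
      ← Cfsg.Agent.Lib.Helper53.AutPSU.map_frob_mul hF, hX]
  calc (X.map (· ^ q))ᵀ * (x : Matrix (Fin n) (Fin n) F)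
      = ((x : Matrix (Fin n) (Fin n) F) * ((x : Matrix (Fin n) (Fin n) F).map (· ^ q))ᵀ)
          * ((X.map (· ^ q))ᵀ * (x : Matrix (Fin n) (Fin n) F)) := by rw [h2, Matrix.one_mul]
    _ = (x : Matrix (Fin n) (Fin n) F)
          * (((x : Matrix (Fin n) (Fin n) F).map (· ^ q))ᵀ * (X.map (· ^ q))ᵀ)
          * (x : Matrix (Fin n) (Fin n) F) := by simp only [Matrix.mul_assoc]
    _ = (x : Matrix (Fin n) (Fin n) F)
          * ((X.map (· ^ q))ᵀ * ((x : Matrix (Fin n) (Fin n) F).map (· ^ q))ᵀ)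
          * (x : Matrix (Fin n) (Fin n) F) := by rw [h3]
    _ = (x : Matrix (Fin n) (Fin n) F) * (X.map (· ^ q))ᵀ
          * (((x : Matrix (Fin n) (Fin n) F).map (· ^ q))ᵀ
            * (x : Matrix (Fin n) (Fin n) F)) := by simp only [Matrix.mul_assoc]
    _ = (x : Matrix (Fin n) (Fin n) F) * (X.map (· ^ q))ᵀ := by rw [h1, Matrix.mul_one]

omit [Fintype F] in
/-- (c) a field subalgebra of degree `n` of `M_n(F)` is its own centraliser. -/
theorem U4_cent (hn : 1 ≤ n) (K : Subalgebra F (Matrix (Fin n) (Fin n) F))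
    (hK : IsFieldSubalgebra n K) (X : Matrix (Fin n) (Fin n) F)
    (hX : ∀ z ∈ K, z * X = X * z) : X ∈ K := by
  classical
  obtain ⟨v₀, hv₀⟩ : ∃ v₀ : Fin n → F, v₀ ≠ 0 := ⟨fun _ => 1, by
    intro h
    have := congrFun h ⟨0, by omega⟩
    simp at this⟩
  let φ : K →ₗ[F] (Fin n → F) :=
    { toFun := fun k => (k : Matrix (Fin n) (Fin n) F) *ᵥ v₀
      map_add' := fun a b => by
        show ((a + b : K) : Matrix (Fin n) (Fin n) F) *ᵥ v₀ = _
        rw [Subalgebra.coe_add, Matrix.add_mulVec]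
      map_smul' := fun c a => by
        show ((c • a : K) : Matrix (Fin n) (Fin n) F) *ᵥ v₀ = _
        rw [Subalgebra.coe_smul, Matrix.smul_mulVec]
        rfl }
  have hφ : ∀ k : K, φ k = (k : Matrix (Fin n) (Fin n) F) *ᵥ v₀ := fun _ => rfl
  have hinj : Function.Injective φ := by
    rw [injective_iff_map_eq_zero]
    intro k hk
    by_contra hk0
    have hk0' : (k : Matrix (Fin n) (Fin n) F) ≠ 0 := fun h => hk0 (Subtype.ext h)
    obtain ⟨y, hy, hky⟩ := hK.inv k.1 k.2 hk0'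
    have hyk : y * k.1 = 1 := by rw [hK.comm y hy k.1 k.2]; exact hky
    apply hv₀
    have h1 : v₀ = (y * k.1) *ᵥ v₀ := by rw [hyk, Matrix.one_mulVec]
    have hk' : k.1 *ᵥ v₀ = 0 := hk
    rw [h1, ← Matrix.mulVec_mulVec, hk', Matrix.mulVec_zero]
  have hfin : Module.finrank F K = Module.finrank F (Fin n → F) := by
    rw [hK.finrank_eq, Module.finrank_fin_fun]
  have hsurj : Function.Surjective φ :=
    (LinearMap.injective_iff_surjective_of_finrank_eq_finrank hfin).1 hinj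
  obtain ⟨k₀, hk₀⟩ := hsurj (X *ᵥ v₀)
  have hk₀' : k₀.1 *ᵥ v₀ = X *ᵥ v₀ := hk₀
  have hXk : X = k₀.1 := by
    apply Matrix.toLin'.injective
    apply LinearMap.ext
    intro v
    obtain ⟨k, hk⟩ := hsurj v
    have hk' : k.1 *ᵥ v₀ = v := hk
    rw [Matrix.toLin'_apply, Matrix.toLin'_apply, ← hk', Matrix.mulVec_mulVec, ← hX k.1 k.2,
      ← Matrix.mulVec_mulVec, ← hk₀', Matrix.mulVec_mulVec, Matrix.mulVec_mulVec,
      hK.comm k.1 k.2 k₀.1 k₀.2]
  rw [hXk]
  exact k₀.2

/-- U4: a field subalgebra of degree `n` in the centre of the commutant of `L ≤ GU` is closed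
under adjoints. -/
theorem U4 (hF : Fintype.card F = q ^ 2) (hn : 1 ≤ n) (L : Subgroup (GL (Fin n) F))
    (hL : L ≤ Cfsg.GU n F q) (K : Subalgebra F (Matrix (Fin n) (Fin n) F))
    (hK : IsFieldSubalgebra n K)
    (hKc : ∀ z ∈ K, (∀ x ∈ L, z * x.1 = x.1 * z) ∧
      ∀ X : Matrix (Fin n) (Fin n) F, (∀ x ∈ L, X * x.1 = x.1 * X) → z * X = X * z) :
    IsAdjointClosedFor (Cfsg.hermForm n F q) K := by
  intro k hk
  refine ⟨(k.map (· ^ q))ᵀ, ?_, fun u v => U4_hf_adj hF k u v⟩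
  apply U4_cent hn K hK
  intro z hz
  apply (hKc z hz).2
  intro x hx
  exact U4_adj_comm hF x (hL hx) k ((hKc k hk).1 x hx)

end Cfsg.Agent.Lib.Helper20.SUPU4
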