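import Mathlib
import Cfsg.Agent.Lib.Helper18.TLDefs

/-!
# Piece HOMOCYC of S3797 (helper18, project TL)

A finite abelian 2-group whose automorphism group is transitive on involutions is homocyclic.
-/

set_option autoImplicit false

namespace Cfsg.Agent.Lib.Helper18.TL

open Subgroup
open scoped commutatorElement

universe u

variable {G : Type u} [Group G]

private theorem homocyc_pow_card (k : ℕ) (v : Multiplicative (ZMod k)) : v ^ k = 1 := by
  have h : k • (Multiplicative.toAdd v) = 0 := by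
    rw [nsmul_eq_mul, ZMod.natCast_self, zero_mul]
  have h2 : Multiplicative.ofAdd (k • (Multiplicative.toAdd v)) = Multiplicative.ofAdd 0 := by
    rw [h]
  rw [ofAdd_nsmul] at h2
  exact h2

private theorem homocyc_gen_pow (k j : ℕ) :
    (Multiplicative.ofAdd (1 : ZMod k)) ^ j = Multiplicative.ofAdd ((j : ℕ) : ZMod k) := by
  rw [← ofAdd_nsmul, nsmul_one]

private theorem homocyc_ofAdd_eq_one (k j : ℕ) :
    Multiplicative.ofAdd ((j : ℕ) : ZMod k) = 1 ↔ k ∣ j := by
  rw [ofAdd_eq_one, CharP.cast_eq_zero_iff (ZMod k) k j]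

private theorem homocyc_comm {A : Type u} [CommGroup A] [Finite A] (hA : IsPGroup 2 A)
    (ht : ∀ x y : A, x ≠ 1 → x ^ 2 = 1 → y ≠ 1 → y ^ 2 = 1 → ∃ a : MulAut A, a x = y) :
    ∃ m r : ℕ, Nonempty (A ≃* (Fin r → Multiplicative (ZMod (2 ^ m)))) := by
  classical
  obtain ⟨ι, _, n, hn, ⟨e⟩⟩ := CommGroup.equiv_prod_multiplicative_zmod_of_finite A
  -- each n i is a power of two
  have hpow : ∀ i, ∃ j, n i = 2 ^ j := by
    intro i
    obtain ⟨k, hk⟩ := hA (e.symm (Pi.mulSingle i (Multiplicative.ofAdd (1 : ZMod (n i)))))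
    have h1 : (Pi.mulSingle i (Multiplicative.ofAdd (1 : ZMod (n i))) :
        (∀ i, Multiplicative (ZMod (n i)))) ^ 2 ^ k = 1 := by
      have := congrArg e hk
      rw [map_pow, MulEquiv.apply_symm_apply] at this
      exact this.trans (map_one e)
    have h2 := congrFun h1 i
    rw [Pi.pow_apply, Pi.mulSingle_eq_same, Pi.one_apply, homocyc_gen_pow,
      homocyc_ofAdd_eq_one] at h2
    obtain ⟨j, -, hj⟩ := (Nat.dvd_prime_pow Nat.prime_two).mp h2
    exact ⟨j, hj⟩
  choose ex hex using hpow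
  have hex1 : ∀ i, 1 ≤ ex i := by
    intro i
    by_contra hcon
    have h0 : ex i = 0 := by omega
    have h1 := hn i
    rw [hex i, h0] at h1
    simp at h1
  -- the generators and their basic properties
  have hgen_ne : ∀ i, (Pi.mulSingle i (Multiplicative.ofAdd (1 : ZMod (n i))) :
      (∀ i, Multiplicative (ZMod (n i)))) ^ 2 ^ (ex i - 1) ≠ 1 := by
    intro i h
    have h2 := congrFun h i
    rw [Pi.pow_apply, Pi.mulSingle_eq_same, Pi.one_apply, homocyc_gen_pow,
      homocyc_ofAdd_eq_one, hex i] at h2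
    have h3 : 2 ^ ex i ≤ 2 ^ (ex i - 1) := Nat.le_of_dvd (by positivity) h2
    have h4 : 2 ^ (ex i - 1) < 2 ^ ex i := Nat.pow_lt_pow_right (by norm_num) (by have := hex1 i; omega)
    omega
  have hgen_sq : ∀ i, ((Pi.mulSingle i (Multiplicative.ofAdd (1 : ZMod (n i))) :
      (∀ i, Multiplicative (ZMod (n i)))) ^ 2 ^ (ex i - 1)) ^ 2 = 1 := by
    intro i
    rw [← pow_mul]
    have h1 : 2 ^ (ex i - 1) * 2 = n i := by
      rw [hex i, ← pow_succ]
      congr 1
      have := hex1 i; omega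
    rw [h1]
    funext j
    rw [Pi.pow_apply, Pi.one_apply]
    by_cases hj : j = i
    · subst hj
      rw [Pi.mulSingle_eq_same]
      exact homocyc_pow_card _ _
    · rw [Pi.mulSingle_eq_of_ne hj, one_pow]
  -- all exponents are equal
  have hall : ∃ m, ∀ i, ex i = m := by
    rcases isEmpty_or_nonempty ι with hι | hι
    · exact ⟨0, fun i => (hι.false i).elim⟩
    · obtain ⟨i₀, -, hi₀⟩ := Finset.exists_max_image Finset.univ ex
        ⟨Classical.arbitrary ι, Finset.mem_univ _⟩
      refine ⟨ex i₀, fun i => ?_⟩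
      by_contra hne
      have hlt : ex i < ex i₀ := lt_of_le_of_ne (hi₀ i (Finset.mem_univ i)) hne
      have hx0 : e.symm ((Pi.mulSingle i₀ (Multiplicative.ofAdd (1 : ZMod (n i₀))) :
          (∀ i, Multiplicative (ZMod (n i)))) ^ 2 ^ (ex i₀ - 1)) ≠ 1 := by
        intro h
        exact hgen_ne i₀ ((MulEquiv.map_eq_one_iff e.symm).mp h)
      have hx0sq : (e.symm ((Pi.mulSingle i₀ (Multiplicative.ofAdd (1 : ZMod (n i₀))) :
          (∀ i, Multiplicative (ZMod (n i)))) ^ 2 ^ (ex i₀ - 1))) ^ 2 = 1 := by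
        rw [← map_pow, hgen_sq i₀, map_one]
      have hx : e.symm ((Pi.mulSingle i (Multiplicative.ofAdd (1 : ZMod (n i))) :
          (∀ i, Multiplicative (ZMod (n i)))) ^ 2 ^ (ex i - 1)) ≠ 1 := by
        intro h
        exact hgen_ne i ((MulEquiv.map_eq_one_iff e.symm).mp h)
      have hxsq : (e.symm ((Pi.mulSingle i (Multiplicative.ofAdd (1 : ZMod (n i))) :
          (∀ i, Multiplicative (ZMod (n i)))) ^ 2 ^ (ex i - 1))) ^ 2 = 1 := by
        rw [← map_pow, hgen_sq i, map_one]
      obtain ⟨a, ha⟩ := ht _ _ hx0 hx0sq hx hxsq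
      -- apply e and look at the coordinate i
      have h1 := congrArg e ha
      rw [MulEquiv.apply_symm_apply, map_pow, map_pow, map_pow] at h1
      have h2 := congrFun h1 i
      rw [Pi.pow_apply] at h2
      have h3 : 2 ^ (ex i₀ - 1) = n i * 2 ^ (ex i₀ - 1 - ex i) := by
        rw [hex i, ← pow_add]
        congr 1
        omega
      rw [h3, pow_mul, homocyc_pow_card, one_pow] at h2
      exact hgen_ne i (by
        funext j
        rw [Pi.one_apply]
        by_cases hj : j = i
        · subst hj; exact h2.symm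
        · rw [Pi.pow_apply, Pi.mulSingle_eq_of_ne hj, one_pow])
  obtain ⟨m, hm⟩ := hall
  have hn' : n = fun _ => 2 ^ m := funext (fun i => by rw [hex i, hm i])
  subst hn'
  exact ⟨m, Fintype.card ι,
    ⟨e.trans (MulEquiv.arrowCongr (Fintype.equivFin ι) (MulEquiv.refl _))⟩⟩

-- piece HOMOCYC
theorem homocyclic {A : Type u} [Group A] [Finite A] (hA : IsPGroup 2 A)
    (hc : ∀ a b : A, a * b = b * a)
    (ht : ∀ x y : A, x ≠ 1 → x ^ 2 = 1 → y ≠ 1 → y ^ 2 = 1 → ∃ a : MulAut A, a x = y) :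
    ∃ m r : ℕ, Nonempty (A ≃* (Fin r → Multiplicative (ZMod (2 ^ m)))) := by
  letI : CommGroup A := { ‹Group A› with mul_comm := hc }
  exact homocyc_comm hA ht

end Cfsg.Agent.Lib.Helper18.TL
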