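import Mathlib
import Cfsg.Prelude.Def_GeometricClasses
import Cfsg.Prelude.Def_LieClassical
import Cfsg.Agent.Lib.Helper7.HermCount
import Cfsg.Agent.Lib.Helper7.GUOrder

/-!
# Piece UF-COUNTSUB of S5982 (helper96): isotropic / norm-one vector counts on a nondegenerate
subspace
-/

set_option autoImplicit false

universe u

namespace Cfsg.Agent.Lib.Helper20.Uf

open Polynomial Matrix
open scoped MatrixGroups

-- PIECE COUNTSUB
theorem count_sub {F : Type*} [Field F] [Fintype F] (p : ℕ) [Fact p.Prime] [CharP F p] (q₀ : ℕ)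
    (hq : Fintype.card F = q₀ ^ 2)
    (hstd : ∀ (m : ℕ) (f : (Fin m → F) → (Fin m → F) → F), Cfsg.Geo.IsUnitaryFormPow q₀ f →
      ∃ Y : Matrix (Fin m) (Fin m) F, IsUnit Y.det ∧
        ∀ u v, f u v = Cfsg.hermForm m F q₀ (Y *ᵥ u) (Y *ᵥ v))
    (n : ℕ) (C : Submodule F (Fin n → F))
    (hnd : ∀ c ∈ C, c ≠ 0 → ∃ x ∈ C, Cfsg.hermForm n F q₀ x c ≠ 0) :
    (Nat.card {v : Fin n → F // v ∈ C ∧ Cfsg.hermForm n F q₀ v v = 0} : ℤ) -
      Nat.card {v : Fin n → F // v ∈ C ∧ Cfsg.hermForm n F q₀ v v = 1} =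
      (-(q₀ : ℤ)) ^ Module.finrank F C := by
  classical
  obtain ⟨φ⟩ : Nonempty ((Fin (Module.finrank F C) → F) ≃ₗ[F] C) :=
    ⟨(Module.finBasis F C).equivFun.symm⟩
  obtain ⟨f, hfdef⟩ : ∃ f : (Fin (Module.finrank F C) → F) → (Fin (Module.finrank F C) → F) → F,
      ∀ u v, f u v = Cfsg.hermForm n F q₀ (φ u : Fin n → F) (φ v : Fin n → F) :=
    ⟨fun u v => Cfsg.hermForm n F q₀ (φ u : Fin n → F) (φ v : Fin n → F), fun _ _ => rfl⟩
  have hf : Cfsg.Geo.IsUnitaryFormPow q₀ f := by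
    refine ⟨?_, ?_, ?_, ?_⟩
    · intro x y v
      rw [hfdef, hfdef, hfdef, map_add, Submodule.coe_add]
      exact Cfsg.Agent.Lib.Helper7.hf_add_left n _ _ _
    · intro c x v
      rw [hfdef, hfdef, map_smul, Submodule.coe_smul]
      exact Cfsg.Agent.Lib.Helper7.hf_smul_left n c _ _
    · intro v w
      rw [hfdef, hfdef]
      exact Cfsg.Agent.Lib.Helper7.hf_conj hq n _ _
    · intro v hv
      have hφv : (φ v : Fin n → F) ≠ 0 := by
        intro h
        apply hv
        have h0 : φ v = 0 := Subtype.ext h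
        exact φ.map_eq_zero_iff.mp h0
      obtain ⟨x, hxC, hx⟩ := hnd _ (φ v).2 hφv
      refine ⟨⟨φ.symm ⟨x, hxC⟩, ?_⟩, ⟨φ.symm ⟨x, hxC⟩, ?_⟩⟩
      · rw [hfdef, LinearEquiv.apply_symm_apply]; exact hx
      · rw [hfdef, LinearEquiv.apply_symm_apply, Cfsg.Agent.Lib.Helper7.hf_conj hq]
        exact pow_ne_zero _ hx
  obtain ⟨Y, hY, hYf⟩ := hstd (Module.finrank F C) f hf
  have key : ∀ t : F, Nat.card {v : Fin n → F // v ∈ C ∧ Cfsg.hermForm n F q₀ v v = t} =
      Cfsg.Agent.Lib.Helper7.hcnt F q₀ (Module.finrank F C) t := by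
    intro t
    unfold Cfsg.Agent.Lib.Helper7.hcnt
    apply Nat.card_congr
    let E1 : {v : Fin n → F // v ∈ C ∧ Cfsg.hermForm n F q₀ v v = t} ≃
        {u : Fin (Module.finrank F C) → F // f u u = t} :=
      { toFun := fun v => ⟨φ.symm ⟨v.1, v.2.1⟩, by
          rw [hfdef, LinearEquiv.apply_symm_apply]; exact v.2.2⟩
        invFun := fun u => ⟨(φ u.1 : Fin n → F), (φ u.1).2, by rw [← hfdef]; exact u.2⟩
        left_inv := fun v => by
          apply Subtype.ext
          show ((φ (φ.symm ⟨v.1, v.2.1⟩) : C) : Fin n → F) = v.1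
          rw [LinearEquiv.apply_symm_apply]
        right_inv := fun u => by
          apply Subtype.ext
          show φ.symm ⟨(φ u.1 : Fin n → F), (φ u.1).2⟩ = u.1
          exact φ.symm_apply_apply u.1 }
    let E2 : {u : Fin (Module.finrank F C) → F // f u u = t} ≃
        {w : Fin (Module.finrank F C) → F //
          Cfsg.hermForm (Module.finrank F C) F q₀ w w = t} :=
      { toFun := fun u => ⟨Y *ᵥ u.1, by rw [← hYf]; exact u.2⟩
        invFun := fun w => ⟨Y⁻¹ *ᵥ w.1, by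
          rw [hYf, Matrix.mulVec_mulVec, Matrix.mul_nonsing_inv Y hY, Matrix.one_mulVec]
          exact w.2⟩
        left_inv := fun u => by
          apply Subtype.ext
          show Y⁻¹ *ᵥ (Y *ᵥ u.1) = u.1
          rw [Matrix.mulVec_mulVec, Matrix.nonsing_inv_mul Y hY, Matrix.one_mulVec]
        right_inv := fun w => by
          apply Subtype.ext
          show Y *ᵥ (Y⁻¹ *ᵥ w.1) = w.1
          rw [Matrix.mulVec_mulVec, Matrix.mul_nonsing_inv Y hY, Matrix.one_mulVec] }
    let E3 : {w : Fin (Module.finrank F C) → F //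
          Cfsg.hermForm (Module.finrank F C) F q₀ w w = t} ≃
        {w : Fin (Module.finrank F C) → F // ∑ i, w i ^ (q₀ + 1) = t} :=
      Equiv.subtypeEquivRight (fun w => by
        have e : Cfsg.hermForm (Module.finrank F C) F q₀ w w = ∑ i, w i ^ (q₀ + 1) := by
          unfold Cfsg.hermForm
          exact Finset.sum_congr rfl (fun i _ => (pow_succ' (w i) q₀).symm)
        rw [e])
    exact E1.trans (E2.trans E3)
  rw [key 0, key 1]
  exact (Cfsg.Agent.Lib.Helper7.herm_counts hq (Module.finrank F C)).1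

end Cfsg.Agent.Lib.Helper20.Uf
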